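import Cfsg.Agent.Lib.Helper57.OE.Defs
import Cfsg.Agent.Lib.Helper1.Sp.Z0

set_option autoImplicit false
set_option linter.unusedSectionVars false

/-! # Even-dimensional orthogonal groups: base API -/

namespace Cfsg.Agent.Lib.Helper57.OE

open Cfsg Cfsg.Geo Matrix Cfsg.Agent.Lib.Helper13.Asch Cfsg.Agent.Lib.Helper90.Sp
open Cfsg.Agent.Lib.Helper1.Sp
open scoped Kronecker MatrixGroups

variable {ι : Type} [Fintype ι] [DecidableEq ι] {F : Type*} [Field F] {Q : (ι → F) → F}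

theorem fixesForm_polar {S : Set (Matrix ι ι F)} (h : FixesQuadForm S Q) :
    FixesForm S (QuadraticMap.polar Q) := by
  intro s hs u v
  unfold QuadraticMap.polar
  rw [← Matrix.mulVec_add, h s hs, h s hs, h s hs]

theorem fixesQuad_mono {H N : Subgroup (GL ι F)} (h : N ≤ H) (hH : FixesQuadForm (matrixSet H) Q) :
    FixesQuadForm (matrixSet N) Q := by
  rintro _ ⟨x, hx, rfl⟩ v
  exact hH _ ⟨x, h hx, rfl⟩ v

theorem polar_symmForm (hQ : IsNondegenerateQuadraticForm Q) :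
    IsSymmetricForm (QuadraticMap.polar Q) :=
  ⟨hQ.polar_bilinear, fun u v => QuadraticMap.polar_comm Q u v, hQ.nondegenerate⟩

theorem Q_add (Q : (ι → F) → F) (u v : ι → F) :
    Q (u + v) = Q u + Q v + QuadraticMap.polar Q u v := by
  unfold QuadraticMap.polar
  ring

theorem two_mul_Q (hQ : IsNondegenerateQuadraticForm Q) (v : ι → F) :
    2 * Q v = QuadraticMap.polar Q v v := by
  have h1 : Q (v + v) = 4 * Q v := by
    rw [← two_smul F v, hQ.smul]
    ring
  unfold QuadraticMap.polar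
  rw [h1]
  ring

theorem Q_zero (hQ : IsNondegenerateQuadraticForm Q) : Q 0 = 0 := by
  have := hQ.smul 0 0
  simpa using this

theorem cenv_adjClosed_symm {f : (ι → F) → (ι → F) → F} (hf : IsSymmetricForm f)
    {N : Subgroup (GL ι F)} (hN : FixesForm (matrixSet N) f) : IsAdjointClosedFor f (cenv N) := by
  intro z hz
  have hzA : z ∈ env N := (Algebra.mem_inf.1 hz).1
  have hzC : ∀ a ∈ env N, a * z = z * a := by
    intro a ha
    exact (Subalgebra.mem_centralizer_iff F).1 (Algebra.mem_inf.1 hz).2 a ha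
  obtain ⟨z', hz'A, hz'⟩ := env_adjClosed hf.bilinear hN z hzA
  refine ⟨z', Algebra.mem_inf.2 ⟨hz'A, ?_⟩, hz'⟩
  rw [Subalgebra.mem_centralizer_iff]
  intro a ha
  obtain ⟨a', ha'A, ha'⟩ := env_adjClosed hf.bilinear hN a ha
  have hsk : ∀ u v, f (a' *ᵥ u) v = f u (a *ᵥ v) := by
    intro u v
    rw [hf.symm, ← ha', hf.symm u (a *ᵥ v)]
  have key : ∀ u v, f u ((z' * a) *ᵥ v) = f u ((a * z') *ᵥ v) := by
    intro u v
    calc f u ((z' * a) *ᵥ v) = f u (z' *ᵥ (a *ᵥ v)) := by rw [Matrix.mulVec_mulVec]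
      _ = f (z *ᵥ u) (a *ᵥ v) := (hz' _ _).symm
      _ = f (a' *ᵥ (z *ᵥ u)) v := (hsk _ _).symm
      _ = f ((a' * z) *ᵥ u) v := by rw [Matrix.mulVec_mulVec]
      _ = f ((z * a') *ᵥ u) v := by rw [hzC a' ha'A]
      _ = f (z *ᵥ (a' *ᵥ u)) v := by rw [Matrix.mulVec_mulVec]
      _ = f (a' *ᵥ u) (z' *ᵥ v) := hz' _ _
      _ = f u (a *ᵥ (z' *ᵥ v)) := hsk _ _
      _ = f u ((a * z') *ᵥ v) := by rw [Matrix.mulVec_mulVec]
  have hb := hf.bilinear
  have hneg : ∀ u w : ι → F, f u (-w) = - f u w := by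
    intro u w
    have := hb.smul_right (-1) u w
    simpa using this
  have hv : ∀ v, (a * z') *ᵥ v = (z' * a) *ᵥ v := by
    intro v
    by_contra hne
    have hne' : (a * z') *ᵥ v - (z' * a) *ᵥ v ≠ 0 := sub_ne_zero.2 hne
    obtain ⟨⟨x, hx⟩, _⟩ := hf.nondegenerate _ hne'
    apply hx
    rw [sub_eq_add_neg, hb.add_right, hneg, key, add_neg_cancel]
  ext i j
  have := congrFun (hv (Pi.single j 1)) i
  simpa [Matrix.mulVec_single_one] using this

theorem tensGram_pure {f : (ι → F) → (ι → F) → F} {a b : ℕ} {e : ι ≃ Fin a × Fin b} {P : GL ι F}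
    {G₁ : Matrix (Fin a) (Fin a) F} {G₂ : Matrix (Fin b) (Fin b) F} (h : TensGram f e P G₁ G₂)
    (x x' : Fin a → F) (y y' : Fin b → F) :
    f (pureV e P x y) (pureV e P x' y') = (x ⬝ᵥ (G₁ *ᵥ x')) * (y ⬝ᵥ (G₂ *ᵥ y')) := by
  unfold pureV
  rw [h]
  unfold formOfGram
  simp only [dotProduct, Matrix.mulVec, Fintype.sum_prod_type, Matrix.kroneckerMap_apply, id]
  rw [Finset.sum_mul_sum]
  refine Finset.sum_congr rfl fun i _ => Finset.sum_congr rfl fun k _ => ?_
  rw [Finset.mul_sum, Finset.mul_sum, Finset.sum_mul_sum]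
  refine Finset.sum_congr rfl fun j _ => Finset.sum_congr rfl fun l _ => ?_
  ring

theorem pureV_swap {a b : ℕ} (e : ι ≃ Fin a × Fin b) (P : GL ι F) (x : Fin a → F) (y : Fin b → F) :
    pureV (e.trans (Equiv.prodComm _ _)) P y x = pureV e P x y := by
  unfold pureV
  congr 1
  funext i
  simp [mul_comm]

theorem fixesQuad_of_le_omega {H : Subgroup (GL ι F)} (h : H ≤ omegaGL Q) :
    FixesQuadForm (matrixSet H) Q := by
  rintro _ ⟨x, hx, rfl⟩ v
  obtain ⟨y, -, rfl⟩ := h hx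
  exact y.2 v v

theorem eq_inf_of_maximal {K H M : Subgroup (GL ι F)} (hH : IsMaximalIn K H)
    (hHM : H ≤ M) (hM : ¬ K ≤ M) : H = M ⊓ K := by
  rcases hH.2 (M ⊓ K) (le_inf hHM hH.1.le) inf_le_right with h | h
  · exact h.symm
  · exact absurd (h ▸ inf_le_left) hM

end Cfsg.Agent.Lib.Helper57.OE
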