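import Cfsg.Agent.Lib.Helper57.OE.Defs

set_option autoImplicit false

/-! # Even-dimensional orthogonal groups: vocabulary for the plus type rows -/

namespace Cfsg.Agent.Lib.Helper57.OE

open Cfsg Cfsg.Geo Matrix Cfsg.Agent.Lib.Helper13.Asch Cfsg.Agent.Lib.Helper90.Sp
open scoped Kronecker MatrixGroups

variable {ι : Type} [Fintype ι] [DecidableEq ι] {F : Type*} [Field F]

/-- `U` is a totally singular subspace of half the dimension -/
def IsLagr (Q : (ι → F) → F) (U : Submodule F (ι → F)) : Prop :=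
  IsTotallySingularQuad Q U ∧ 2 * Module.finrank F U = Fintype.card ι

/-- `H` stabilises a pair of complementary totally singular subspaces -/
def RPair (Q : (ι → F) → F) (H : Subgroup (GL ι F)) : Prop :=
  ∃ (k : ℕ) (D : Fin 2 → Submodule F (ι → F)), IsMDecomposition k D ∧
    (∀ i, IsTotallySingularQuad Q (D i)) ∧ H ≤ decompositionStabilizer D

/-- `H` stabilises a tensor decomposition `2 ⊗ b` of the polar form into symplectic forms, with
`Q` vanishing on the pure tensors -/
def RAlt (Q : (ι → F) → F) (H : Subgroup (GL ι F)) : Prop :=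
  ∃ (b : ℕ) (e : ι ≃ Fin 2 × Fin b) (P : GL ι F)
    (f₁ : (Fin 2 → F) → (Fin 2 → F) → F) (f₂ : (Fin b → F) → (Fin b → F) → F),
    IsSymplecticForm f₁ ∧ IsSymplecticForm f₂ ∧
    IsTensorFormStructure id (QuadraticMap.polar Q) f₁ f₂ e P ∧
    (∀ (x₁ : Fin 2 → F) (x₂ : Fin b → F), Q (pureV e P x₁ x₂) = 0) ∧
    H ≤ tensorProductSubgroup 2 b e P

end Cfsg.Agent.Lib.Helper57.OE
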