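import Cfsg.Agent.Lib.Helper51.OE.F1
import Cfsg.Agent.Lib.Helper57.OE.Base

set_option autoImplicit false

/-! # G0, G3: the orthogonal complement of a non-degenerate subspace; anti-isometries from
Lagrangians -/

namespace Cfsg.Agent.Lib.Helper57.OE

open Cfsg Cfsg.Geo Matrix
open Cfsg.Agent.Lib.Helper51.OE (perp mem_perp mem_perp' finrank_perp ts_sup ts_finrank_le
  polar_eq_zero_of_ts)

variable {ι : Type} [Fintype ι] [DecidableEq ι] {F : Type*} [Field F] {Q : (ι → F) → F}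

theorem perp_nondeg (hQ : IsNondegenerateQuadraticForm Q) (W : Submodule F (ι → F))
    (hnd : IsNondegenerateOn (QuadraticMap.polar Q) W) :
    IsNondegenerateOn (QuadraticMap.polar Q) (perp hQ W) ∧ IsCompl W (perp hQ W) := by
  have hc : IsCompl W (perp hQ W) := Cfsg.Agent.Lib.Helper37.OE.isCompl_orth hQ W hnd
  refine ⟨?_, hc⟩
  have key : ∀ w ∈ perp hQ W, w ≠ 0 → ∃ x ∈ perp hQ W, QuadraticMap.polar Q x w ≠ 0 := by
    intro w hw hw0
    obtain ⟨⟨x, hx⟩, -⟩ := hQ.nondegenerate w hw0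
    have hxt : x ∈ W ⊔ perp hQ W := by
      rw [hc.sup_eq_top]; trivial
    obtain ⟨a, ha, b, hb, rfl⟩ := Submodule.mem_sup.1 hxt
    refine ⟨b, hb, ?_⟩
    rw [hQ.polar_bilinear.add_left] at hx
    have h0 : QuadraticMap.polar Q a w = 0 := (mem_perp hQ).1 hw a ha
    rwa [h0, zero_add] at hx
  intro w hw hw0
  obtain ⟨x, hx, hxw⟩ := key w hw hw0
  exact ⟨⟨x, hx, hxw⟩, ⟨x, hx, by rwa [QuadraticMap.polar_comm]⟩⟩

theorem anti_isometry_of_lagr (hQ : IsNondegenerateQuadraticForm Q) (W : Submodule F (ι → F))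
    (hnd : IsNondegenerateOn (QuadraticMap.polar Q) W)
    (hdim : 2 * Module.finrank F W = Fintype.card ι) (U : Submodule F (ι → F)) (hU : IsLagr Q U)
    (hUW : U ⊓ W = ⊥) :
    ∃ θ : W ≃ₗ[F] perp hQ W, ∀ w : W, Q ((θ w : perp hQ W) : ι → F) = - Q (w : ι → F) := by
  have hc : IsCompl W (perp hQ W) := (perp_nondeg hQ W hnd).2
  have hfr := finrank_perp hQ W
  have hU2 := hU.2
  -- `U ⊔ W = ⊤`
  have htop : U ⊔ W = ⊤ := by
    apply Submodule.eq_top_of_finrank_eq
    have h1 := Submodule.finrank_sup_add_finrank_inf_eq U W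
    rw [hUW, finrank_bot] at h1
    rw [Module.finrank_fintype_fun_eq_card]
    omega
  have hUW' : U ⊓ perp hQ W = ⊥ := by
    rw [eq_bot_iff]
    rintro b ⟨hb1, hb2⟩
    by_contra hb0
    obtain ⟨⟨x, hx⟩, -⟩ := hQ.nondegenerate b hb0
    apply hx
    have hxt : x ∈ U ⊔ W := by rw [htop]; trivial
    obtain ⟨u, hu, w, hw, rfl⟩ := Submodule.mem_sup.1 hxt
    rw [hQ.polar_bilinear.add_left, polar_eq_zero_of_ts hU.1 hu hb1, (mem_perp hQ).1 hb2 w hw,
      add_zero]
  let p1 : U →ₗ[F] W := (Submodule.projectionOnto W (perp hQ W) hc).domRestrict U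
  let p2 : U →ₗ[F] perp hQ W := (Submodule.projectionOnto (perp hQ W) W hc.symm).domRestrict U
  have hp1 : Function.Injective p1 := by
    rw [← LinearMap.ker_eq_bot, LinearMap.ker_eq_bot']
    intro u hu
    have h1 : (u : ι → F) ∈ perp hQ W := by
      have : Submodule.projectionOnto W (perp hQ W) hc (u : ι → F) = 0 := hu
      rwa [Submodule.projectionOnto_apply_eq_zero_iff] at this
    have : (u : ι → F) ∈ U ⊓ perp hQ W := ⟨u.2, h1⟩
    rw [hUW'] at this
    exact Subtype.ext this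
  have hp2 : Function.Injective p2 := by
    rw [← LinearMap.ker_eq_bot, LinearMap.ker_eq_bot']
    intro u hu
    have h1 : (u : ι → F) ∈ W := by
      have : Submodule.projectionOnto (perp hQ W) W hc.symm (u : ι → F) = 0 := hu
      rwa [Submodule.projectionOnto_apply_eq_zero_iff] at this
    have : (u : ι → F) ∈ U ⊓ W := ⟨u.2, h1⟩
    rw [hUW] at this
    exact Subtype.ext this
  let e1 : U ≃ₗ[F] W := LinearEquiv.ofInjectiveOfFinrankEq p1 hp1 (by omega)
  let e2 : U ≃ₗ[F] perp hQ W := LinearEquiv.ofInjectiveOfFinrankEq p2 hp2 (by omega)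
  refine ⟨e1.symm.trans e2, fun w => ?_⟩
  obtain ⟨u, rfl⟩ := e1.surjective w
  rw [LinearEquiv.trans_apply, LinearEquiv.symm_apply_apply]
  have hsum : ((e1 u : W) : ι → F) + ((e2 u : perp hQ W) : ι → F) = (u : ι → F) :=
    Submodule.projection_add_projection_eq_self hc (u : ι → F)
  have h0 := hU.1 u u.2
  rw [← hsum, Q_add Q, (mem_perp hQ).1 (e2 u).2 _ (e1 u).2, add_zero] at h0
  exact eq_neg_of_add_eq_zero_right h0

end Cfsg.Agent.Lib.Helper57.OE
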