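import Cfsg.Agent.Lib.Helper57.OE.Base
import Cfsg.Agent.Lib.Helper1.Sp.TS
import Cfsg.Agent.Lib.Helper1.Sp.K1a
import Cfsg.Agent.Lib.Helper67.Sp.K1b
import Cfsg.Agent.Lib.Helper95.Sp.K2y
import Cfsg.Agent.Lib.Helper65.Sp.T5
import Cfsg.Agent.Lib.Helper65.Sp.T4a
import Cfsg.Agent.Lib.Helper91.Sp.H4
import Cfsg.Agent.Lib.Helper35.Asch.L7a
import Cfsg.Agent.Lib.Helper58.Asch.L3
import Cfsg.Agent.Lib.Helper60.Asch.G2
import Cfsg.Agent.Lib.Helper12.Asch.K2a
import Cfsg.Agent.Lib.Helper91.Sp.H1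
import Cfsg.Agent.Lib.Helper96.Asch.L0c
import Cfsg.Agent.Lib.Helper96.Asch.L10
import Cfsg.Agent.Lib.Helper72.OE.E1
import Cfsg.Agent.Lib.Helper12.OE.CD
import Cfsg.Agent.Lib.Helper12.OE.T0
import Cfsg.Agent.Lib.Helper12.OE.T8
import Cfsg.Agent.Lib.Helper12.OE.H2
import Cfsg.Agent.Lib.Helper35.OE.T4
import Cfsg.Agent.Lib.Helper35.OE.S1
import Cfsg.Agent.Lib.Helper62.OE.T5
import Cfsg.Agent.Lib.Helper62.OE.T6
import Cfsg.Agent.Lib.Helper62.OE.T7
import Cfsg.Agent.Lib.Helper62.OE.T9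
import Cfsg.Agent.Lib.Helper62.OE.K3

set_option autoImplicit false
set_option linter.unusedSectionVars false

/-! # Subgroups of the orthogonal groups in dimension 8 and 12: the core dichotomy -/

namespace Cfsg.Agent.Lib.Helper57.OE

open Cfsg Cfsg.Geo Matrix Cfsg.Agent.Lib.Helper13.Asch Cfsg.Agent.Lib.Helper90.Sp
open Cfsg.Agent.Lib.Helper1.Sp Cfsg.Agent.Lib.Helper67.Sp Cfsg.Agent.Lib.Helper95.Sp
open Cfsg.Agent.Lib.Helper65.Sp Cfsg.Agent.Lib.Helper91.Sp
open Cfsg.Agent.Lib.Helper72.OE Cfsg.Agent.Lib.Helper12.OE Cfsg.Agent.Lib.Helper35.OE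
open Cfsg.Agent.Lib.Helper62.OE
open scoped Kronecker MatrixGroups commutatorElement

variable {ι : Type} [Fintype ι] [DecidableEq ι] {F : Type*} [Field F] {Q : (ι → F) → F}

/-! ## assemblies (helper57) -/

theorem skew_self (h2 : (2 : F) ≠ 0) {n : ℕ} (G : Matrix (Fin n) (Fin n) F) (hs : Gᵀ = -G)
    (x : Fin n → F) : x ⬝ᵥ (G *ᵥ x) = 0 := by
  have h1 : x ⬝ᵥ (G *ᵥ x) = x ⬝ᵥ (Gᵀ *ᵥ x) := by
    rw [Matrix.mulVec_transpose, Matrix.dotProduct_mulVec, dotProduct_comm]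
  rw [hs, Matrix.neg_mulVec, dotProduct_neg] at h1
  have h3 : 2 * (x ⬝ᵥ (G *ᵥ x)) = 0 := by linear_combination h1
  exact (mul_eq_zero.1 h3).resolve_left h2

theorem skew_diag (h2 : (2 : F) ≠ 0) {n : ℕ} (G : Matrix (Fin n) (Fin n) F) (hs : Gᵀ = -G)
    (i : Fin n) : G i i = 0 := by
  have h1 : G i i = - G i i := by
    have := congrFun (congrFun hs i) i
    simpa using this
  have h3 : 2 * G i i = 0 := by linear_combination h1
  exact (mul_eq_zero.1 h3).resolve_left h2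

theorem dims_cases {a b n : ℕ} (hn : n = 8 ∨ n = 12) (ha : 2 ≤ a) (hb : 2 ≤ b) (h : a * b = n) :
    a = 2 ∨ b = 2 ∨ (a = 3 ∧ b = 4) ∨ (a = 4 ∧ b = 3) := by
  have ha6 : a ≤ 6 := by rcases hn with rfl | rfl <;> nlinarith
  interval_cases a <;> omega

/-- TT (assembly) -/
theorem o_tensor [Fintype F] [Nonempty ι] (hι : Fintype.card ι = 8 ∨ Fintype.card ι = 12)
    (hQ : IsNondegenerateQuadraticForm Q) {H : Subgroup (GL ι F)}
    (hH : FixesQuadForm (matrixSet H) Q) (hirr : ActsIrreducibly (matrixSet H)) {a b : ℕ}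
    (ha : 2 ≤ a) (hb : 2 ≤ b) (e : ι ≃ Fin a × Fin b) (P : GL ι F)
    (hHt : H ≤ tensorProductSubgroup a b e P)
    (hadj : ∀ X : Matrix (Fin a) (Fin a) F, ∃ Y : Matrix (Fin a) (Fin a) F,
      ∀ u v, QuadraticMap.polar Q (embL e P X *ᵥ u) v = QuadraticMap.polar Q u (embL e P Y *ᵥ v)) :
    IsPlusTypeOn Q ⊤ ∨ SqrtJ H ∨ (Odd (Fintype.card F) ∧ RTens Q H) := by
  obtain ⟨G₁, G₂, hG, h1, h2, hs⟩ := tensGram_of_adj_symm (polar_symmForm hQ) e P hadj
  have hcard : a * b = Fintype.card ι := by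
    have := Fintype.card_congr e
    simpa using this.symm
  have hHt' : H ≤ tensorProductSubgroup b a (e.trans (Equiv.prodComm _ _)) P := by
    rw [← Cfsg.Agent.Lib.Helper35.Asch.tensor_swap]; exact hHt
  have hf := fixesForm_polar hH
  have hu : (![1, 0] : Fin 2 → F) ≠ 0 := by
    intro h
    have := congrFun h 0
    simp at this
  have hcases := dims_cases hι ha hb hcard
  by_cases hodd : Odd (Fintype.card F)
  · have h20 : (2 : F) ≠ 0 := fun h => (two_eq_zero_iff.1 h) hodd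
    have hsl : ∀ {c d : ℕ} (e' : ι ≃ Fin c × Fin d) {K₁ : Matrix (Fin c) (Fin c) F}
        {K₂ : Matrix (Fin d) (Fin d) F}, TensGram (QuadraticMap.polar Q) e' P K₁ K₂ → K₁ᵀ = -K₁ →
        ∀ x y, Q (pureV e' P x y) = 0 := by
      intro c d e' K₁ K₂ hK hsk x y
      have h3 := two_mul_Q hQ (pureV e' P x y)
      rw [tensGram_pure hK, skew_self h20 K₁ hsk, zero_mul] at h3
      exact (mul_eq_zero.1 h3).resolve_left h20
    rcases hs with ⟨hs1, hs2⟩ | ⟨hs1, hs2⟩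
    · rcases hcases with rfl | rfl | ⟨rfl, rfl⟩ | ⟨rfl, rfl⟩
      · rcases o_tensor_two h20 hQ hH e P hG h1 h2 hs1 hHt with h | h
        · exact Or.inl h
        · exact Or.inr (Or.inl h)
      · rcases o_tensor_two h20 hQ hH _ P (Cfsg.Agent.Lib.Helper65.Sp.TensGram.swap hG) h2 h1 hs2 hHt' with h | h
        · exact Or.inl h
        · exact Or.inr (Or.inl h)
      · exact Or.inr (Or.inr ⟨hodd, o_class4 (by norm_num) (by norm_num) e P hG h1 h2 hs1 hs2 hHt⟩)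
      · exact Or.inr (Or.inr ⟨hodd, o_class4 (by norm_num) (by norm_num) e P hG h1 h2 hs1 hs2 hHt⟩)
    · rcases hcases with rfl | rfl | ⟨rfl, rfl⟩ | ⟨rfl, rfl⟩
      · exact Or.inl (plus_of_slice e P _ hu (fun y => hsl e hG hs1 _ y))
      · exact Or.inl (plus_of_slice _ P _ hu (fun y => hsl _ (Cfsg.Agent.Lib.Helper65.Sp.TensGram.swap hG) hs2 _ y))
      · exact (no_alt_three G₁ h1 hs1 (skew_diag h20 G₁ hs1)).elim
      · exact (no_alt_three G₂ h2 hs2 (skew_diag h20 G₂ hs2)).elim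
  · have h20 : (2 : F) = 0 := two_eq_zero_iff.2 hodd
    have hneg : ∀ {n : ℕ} (M : Matrix (Fin n) (Fin n) F), -M = M := by
      intro n M
      have : M + M = 0 := by rw [← two_smul F M, h20, zero_smul]
      exact neg_eq_of_add_eq_zero_left this
    have hs1 : G₁ᵀ = G₁ := by rcases hs with ⟨h, -⟩ | ⟨h, -⟩ <;> simpa [hneg] using h
    have hs2 : G₂ᵀ = G₂ := by rcases hs with ⟨-, h⟩ | ⟨-, h⟩ <;> simpa [hneg] using h
    have hd2 := diag_zero_of_irr h20 hf hirr hb e P hG h1 h2 hs2 hHt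
    have hd1 := diag_zero_of_irr h20 hf hirr ha _ P (Cfsg.Agent.Lib.Helper65.Sp.TensGram.swap hG) h2 h1 hs1 hHt'
    have hpure := sing_pure_of_alternating h20 (by omega) hQ hH hirr e P hG hs1 hs2 hd1 hd2 hHt
    rcases hcases with rfl | rfl | ⟨rfl, rfl⟩ | ⟨rfl, rfl⟩
    · exact Or.inl (plus_of_slice e P _ hu (fun y => hpure _ y))
    · exact Or.inl (plus_of_slice _ P _ hu (fun y => by rw [pureV_swap]; exact hpure y _))
    · exact (no_alt_three G₁ h1 (by rw [hs1, hneg]) hd1).elim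
    · exact (no_alt_three G₂ h2 (by rw [hs2, hneg]) hd2).elim

/-- TM (assembly) -/
theorem o_tensor_main [Fintype F] [Nonempty ι] (hι : Fintype.card ι = 8 ∨ Fintype.card ι = 12)
    (hQ : IsNondegenerateQuadraticForm Q) {H N : Subgroup (GL ι F)}
    (hH : FixesQuadForm (matrixSet H) Q) (hirr : ActsIrreducibly (matrixSet H)) (hNH : N ≤ H)
    (hN : Nrm H N)
    (hcentre : ∀ z ∈ env N, (∀ a ∈ env N, z * a = a * z) → ∃ c : F, z = c • 1)
    (hns : ¬ N ≤ scalars ι F) (hnt : env N ≠ ⊤) :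
    IsPlusTypeOn Q ⊤ ∨ SqrtJ H ∨ (Odd (Fintype.card F) ∧ RTens Q H) := by
  obtain ⟨a, b, e, P, ha, hb, hA, hHt⟩ := tensor_structure_of_normal hirr hN hcentre hns hnt
  refine o_tensor hι hQ hH hirr ha hb e P hHt ?_
  intro X
  obtain ⟨k', hk', hk⟩ := env_adjClosed hQ.polar_bilinear
    (fixes_mono hNH (fixesForm_polar hH)) _ ((hA _).2 ⟨X, rfl⟩)
  obtain ⟨Y, rfl⟩ := (hA _).1 hk'
  exact ⟨Y, hk⟩

/-- G (assembly) -/
theorem o_qp_or_class [Fintype F] (hι : Fintype.card ι = 8 ∨ Fintype.card ι = 12)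
    (hQ : IsNondegenerateQuadraticForm Q) {H : Subgroup (GL ι F)}
    (hH : FixesQuadForm (matrixSet H) Q) :
    Raw Q H ∨ IsPlusTypeOn Q ⊤ ∨ (ActsIrreducibly (matrixSet H) ∧ QP H) := by
  have : Nonempty ι := Fintype.card_pos_iff.1 (by omega)
  by_cases hirr : ActsIrreducibly (matrixSet H)
  · by_cases hc : Raw Q H ∨ IsPlusTypeOn Q ⊤
    · rcases hc with h | h
      · exact Or.inl h
      · exact Or.inr (Or.inl h)
    refine Or.inr (Or.inr ⟨hirr, fun N hNH hN => ?_⟩)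
    by_contra hcon
    push Not at hcon
    obtain ⟨hns, hnt⟩ := hcon
    obtain ⟨hZ, hcomm⟩ := cenv_props hN
    have hadj := cenv_adjClosed_symm (polar_symmForm hQ) (fixes_mono hNH (fixesForm_polar hH))
    rcases o_comm_dichotomy hQ (by omega) hH hirr (cenv N) hZ hcomm hadj with h | h | hinv
    · exact hc (Or.inl (Or.inr (Or.inr (Or.inr (Or.inl h)))))
    · exact hc (Or.inr h)
    by_cases hne : ∃ x ∈ cenv N, ∀ c : F, x ≠ c • 1
    · exact hc (Or.inl (Or.inr (Or.inr (Or.inr (Or.inr (Or.inl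
        (Cfsg.Agent.Lib.Helper58.Asch.prime_subfield H (cenv N) hZ hcomm hinv hne)))))))
    · push Not at hne
      have hcentre : ∀ z ∈ env N, (∀ a ∈ env N, z * a = a * z) → ∃ c : F, z = c • 1 := by
        intro z hz hza
        refine hne z ⟨hz, ?_⟩
        refine (Subalgebra.mem_centralizer_iff F).2 ?_
        intro a ha
        exact (hza a ha).symm
      rcases o_tensor_main hι hQ hH hirr hNH hN hcentre hns hnt with h | h | h
      · exact hc (Or.inr h)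
      · obtain ⟨K, hK, hHK⟩ := rfield_of_sqrtJ h
        exact hc (Or.inl (Or.inr (Or.inr (Or.inr (Or.inr (Or.inl
          ⟨2, K, Nat.prime_two, hK, hHK⟩))))))
      · exact hc (Or.inl (Or.inr (Or.inr (Or.inr (Or.inr (Or.inr (Or.inl h)))))))
  · rcases o_reducible hQ hH hirr with h | h | h
    · exact Or.inl (Or.inl h)
    · exact Or.inl (Or.inr (Or.inl h))
    · exact Or.inl (Or.inr (Or.inr (Or.inl h)))

/-- H (assembly) -/
theorem o_c6 [Fintype F] (hι : Fintype.card ι = 8 ∨ Fintype.card ι = 12)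
    (hQ : IsNondegenerateQuadraticForm Q) {H N : Subgroup (GL ι F)}
    (hH : FixesQuadForm (matrixSet H) Q) (hN : MinNormal H N) (henv : env N = ⊤)
    (hab : ⁅N, N⁆ ≤ scalars ι F) : IsPlusTypeOn Q ⊤ := by
  have : Nonempty ι := Fintype.card_pos_iff.1 (by omega)
  have hNQ := fixesQuad_mono hN.le hH
  have hcomm : ∀ x ∈ N, ∀ y ∈ N, x * y * x⁻¹ * y⁻¹ ∈ scalars ι F := by
    intro x hx y hy
    have := hab (Subgroup.commutator_mem_commutator hx hy)
    rwa [commutatorElement_def] at this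
  obtain ⟨h2, -, hx4, -, hcard2⟩ := Cfsg.Agent.Lib.Helper91.Sp.es_core (by omega)
    hQ.polar_bilinear hQ.nondegenerate (fixesForm_polar hNQ) henv hcomm
  have h1 := Cfsg.Agent.Lib.Helper96.Asch.card_eq_sq_mul N hcomm henv
  rw [hcard2] at h1
  rcases hι with hι | hι
  · exact plus_of_extraspecial hQ hι h2 hNQ henv hcomm (by rw [h1, hι]; norm_num)
  · exfalso
    have hp : IsPGroup 2 N := fun x => ⟨2, Subtype.ext (hx4 x.1 x.2)⟩
    obtain ⟨j, hj⟩ := hp.exists_card_eq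
    rw [h1, hι] at hj
    have h3 : 3 ∣ 2 ^ j := by rw [← hj]; norm_num
    have := Nat.Prime.dvd_of_dvd_pow Nat.prime_three h3
    omega

/-- K1 (assembly) -/
theorem o_simple [Fintype F] (hι : 2 ≤ Fintype.card ι) (hQ : IsNondegenerateQuadraticForm Q)
    {H N : Subgroup (GL ι F)} (hH : FixesQuadForm (matrixSet H) Q)
    (hirr : ActsIrreducibly (matrixSet H)) (hQP : QP H) (h : MinNormal H N)
    (hperf : ¬ ⁅N, N⁆ ≤ scalars ι F)
    (hsimple : ∀ L : Subgroup (GL ι F), H ⊓ scalars ι F ≤ L → L ≤ N → Nrm N L →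
      L = H ⊓ scalars ι F ∨ L = N) :
    RSub Q H ∨ InOrthogonalResidualClass H := by
  obtain ⟨hnrm, hle, henv, hcore⟩ := residual_core hQP h hperf hsimple
  have hPf := fixes_mono hle (fixesForm_polar hH)
  by_cases hreal : ∃ F₀ : Subfield F, F₀ ≠ ⊤ ∧ RealisableOver F₀ (matrixSet ⁅N, N⁆)
  · obtain ⟨F₀, hF₀, hr⟩ := hreal
    obtain ⟨F₁, r, P, ζ, hr, hc, hζ, hf, hHs⟩ :=
      sp_subfield hQ.polar_bilinear hQ.nondegenerate H _ hnrm henv hPf F₀ hF₀ hr
    exact Or.inl ⟨F₁, r, P, ζ, hr, hc, hζ, quad_rational hQ hι hH hirr F₁ P ζ hζ hf hHs, hHs⟩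
  refine Or.inr ⟨⁅N, N⁆, hcore ?_, ?_⟩
  · intro F₀ hF₀ hr
    exact hreal ⟨F₀, hF₀, hr⟩
  · rintro ⟨σ, u, hu, hfu⟩
    exact hreal (realisable_of_bilinear_unitary henv hQ.polar_bilinear hQ.nondegenerate hPf σ u
      hu hfu)

/-- K2 (assembly) -/
theorem o_components [Fintype F] (hι : Fintype.card ι = 8 ∨ Fintype.card ι = 12)
    (hQ : IsNondegenerateQuadraticForm Q) {H : Subgroup (GL ι F)}
    (hH : FixesQuadForm (matrixSet H) Q) (hQP : QP H)
    {t : ℕ} (ht : 2 ≤ t) (P : Fin t → Subgroup (GL ι F)) (hPH : ∀ i, P i ≤ H)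
    (hcomm : ∀ i j, i ≠ j → ∀ x ∈ P i, ∀ y ∈ P j, x * y = y * x)
    (hperm : ∀ h ∈ H, ∃ σ : Equiv.Perm (Fin t), ∀ i,
      (P i).map (MulAut.conj h).toMonoidHom = P (σ i))
    (htrans : ∀ i j, ∃ h ∈ H, (P i).map (MulAut.conj h).toMonoidHom = P j)
    (hns : ∀ i, ¬ P i ≤ scalars ι F) (hperf : ∀ i, ⁅P i, P i⁆ = P i) : IsPlusTypeOn Q ⊤ := by
  have : Nonempty ι := Fintype.card_pos_iff.1 (by omega)
  have i0 : Fin t := ⟨0, by omega⟩
  rcases hι with hι | hι
  · obtain ⟨henv, hnrm, hle, hall⟩ := family_props hQP ht P hPH hcomm hperm hns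
    obtain ⟨h1, h3, h4⟩ := hall i0
    have hirr := (Cfsg.Agent.Lib.Helper96.Asch.absIrr_of_env_top henv).1
    have hMperf : ⁅⨆ i, P i, ⨆ i, P i⁆ = ⨆ i, P i := by
      apply le_antisymm (Subgroup.commutator_le_self _)
      refine iSup_le fun i => ?_
      conv_lhs => rw [← hperf i]
      exact Subgroup.commutator_mono (le_iSup P i) (le_iSup P i)
    rcases o_tensor_main (Or.inl hι) hQ (fixesQuad_mono hle hH) hirr (le_iSup P i0) h1 h3 (hns i0)
      h4 with h | h | ⟨-, a, b, e, -, -, -, ha, hb, -⟩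
    · exact h
    · exact (no_sqrtJ_of_perfect hMperf henv h).elim
    · exfalso
      have hc : a * b = 8 := by
        have := Fintype.card_congr e
        rw [hι] at this
        simpa using this.symm
      nlinarith
  · exfalso
    obtain ⟨m, e, -, -⟩ := tensor_structure_of_family hQP ht P hPH hcomm hperm htrans hns
    have hc : m ^ t = 12 := by
      have := Fintype.card_congr e
      rw [hι] at this
      simpa using this.symm
    obtain ⟨s, rfl⟩ : ∃ s, t = s + 2 := ⟨t - 2, by omega⟩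
    have hm : m ^ 2 ∣ 12 := by rw [← hc, pow_add, mul_comm]; exact Dvd.intro _ rfl
    have hm3 : m ≤ 3 := by
      by_contra hcon
      have : 16 ≤ m ^ 2 := by nlinarith
      have := Nat.le_of_dvd (by norm_num) hm
      omega
    interval_cases m
    · simp at hc
    · simp at hc
    · have h3 : 3 ∣ 2 ^ (s + 2) := by rw [hc]; norm_num
      have := Nat.Prime.dvd_of_dvd_pow Nat.prime_three h3
      omega
    · norm_num at hm

/-- M (assembly) -/
theorem core [Fintype F] (hι : Fintype.card ι = 8 ∨ Fintype.card ι = 12)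
    (hQ : IsNondegenerateQuadraticForm Q) (H : Subgroup (GL ι F))
    (hH : FixesQuadForm (matrixSet H) Q) :
    Raw Q H ∨ IsPlusTypeOn Q ⊤ ∨ InOrthogonalResidualClass H := by
  rcases o_qp_or_class hι hQ hH with h | h | ⟨hirr, hQP⟩
  · exact Or.inl h
  · exact Or.inr (Or.inl h)
  have hι2 : 2 ≤ Fintype.card ι := by omega
  obtain ⟨N, hN⟩ := Cfsg.Agent.Lib.Helper60.Asch.exists_minNormal H (not_scalar_of_irr hι2 hirr)
  have henv : env N = ⊤ := (hQP N hN.le hN.nrm).resolve_left hN.not_sc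
  by_cases hab : ⁅N, N⁆ ≤ scalars ι F
  · exact Or.inr (Or.inl (o_c6 hι hQ hH hN henv hab))
  · by_cases hs : ∀ L : Subgroup (GL ι F), H ⊓ scalars ι F ≤ L → L ≤ N → Nrm N L →
      L = H ⊓ scalars ι F ∨ L = N
    · rcases o_simple hι2 hQ hH hirr hQP hN hab hs with h | h
      · exact Or.inl (Or.inr (Or.inr (Or.inr (Or.inr (Or.inr (Or.inr h))))))
      · exact Or.inr (Or.inr h)
    · obtain ⟨t, P, ht, h1, h2, h3, h4, h5, h6⟩ :=
        Cfsg.Agent.Lib.Helper12.Asch.exists_family hN hab hs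
      exact Or.inr (Or.inl (o_components hι hQ hH hQP ht P h1 h2 h3 h4 h5 h6))

end Cfsg.Agent.Lib.Helper57.OE
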