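import Cfsg.Agent.Lib.Helper90.Sp.Defs

set_option autoImplicit false

/-! # Subgroup structure of the orthogonal groups in even dimension: shared vocabulary -/

namespace Cfsg.Agent.Lib.Helper57.OE

open Cfsg Cfsg.Geo Matrix Cfsg.Agent.Lib.Helper13.Asch Cfsg.Agent.Lib.Helper90.Sp
open scoped Kronecker MatrixGroups

variable {ι : Type} [Fintype ι] [DecidableEq ι] {F : Type*} [Field F]

/-- `H` stabilises a non-zero totally singular subspace -/
def RSing (Q : (ι → F) → F) (H : Subgroup (GL ι F)) : Prop :=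
  ∃ W : Submodule F (ι → F), W ≠ ⊥ ∧ IsTotallySingularQuad Q W ∧ H ≤ subspaceStabilizer W

/-- `H` stabilises a proper non-zero non-degenerate subspace -/
def RNd (Q : (ι → F) → F) (H : Subgroup (GL ι F)) : Prop :=
  ∃ W : Submodule F (ι → F), W ≠ ⊥ ∧ W ≠ ⊤ ∧ IsNondegenerateOn (QuadraticMap.polar Q) W ∧
    H ≤ subspaceStabilizer W

/-- `H` stabilises the span of a non-singular vector -/
def RVec (Q : (ι → F) → F) (H : Subgroup (GL ι F)) : Prop :=
  ∃ v : ι → F, Q v ≠ 0 ∧ H ≤ subspaceStabilizer (Submodule.span F {v})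

/-- `H` stabilises an orthogonal decomposition into isometric subspaces -/
def RDec (Q : (ι → F) → F) (H : Subgroup (GL ι F)) : Prop :=
  ∃ (t k : ℕ) (D : Fin t → Submodule F (ι → F)), IsOrthogonalMDecomposition Q k D ∧
    H ≤ decompositionStabilizer D

/-- `H` normalises an extension field of prime degree -/
def RField (H : Subgroup (GL ι F)) : Prop :=
  ∃ (r : ℕ) (K : Subalgebra F (Matrix ι ι F)), r.Prime ∧ IsFieldSubalgebra r K ∧
    H ≤ subalgebraNormalizer K

/-- `H` stabilises a tensor decomposition of the polar form into symmetric forms, both factors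
of dimension at least 3 -/
def RTens (Q : (ι → F) → F) (H : Subgroup (GL ι F)) : Prop :=
  ∃ (a b : ℕ) (e : ι ≃ Fin a × Fin b) (P : GL ι F)
    (f₁ : (Fin a → F) → (Fin a → F) → F) (f₂ : (Fin b → F) → (Fin b → F) → F),
    3 ≤ a ∧ 3 ≤ b ∧ IsSymmetricForm f₁ ∧ IsSymmetricForm f₂ ∧
    IsTensorFormStructure id (QuadraticMap.polar Q) f₁ f₂ e P ∧ H ≤ tensorProductSubgroup a b e P

/-- `H` lies in a subfield group of prime index carrying a multiple of `Q` -/
def RSub [Fintype F] (Q : (ι → F) → F) (H : Subgroup (GL ι F)) : Prop :=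
  ∃ (F₀ : Subfield F) (r : ℕ) (P : GL ι F) (ζ : F), r.Prime ∧ Fintype.card F = Nat.card F₀ ^ r ∧
    ζ ≠ 0 ∧ IsQuadFormRationalStructure (fun v => ζ * Q v) F₀ P ∧ H ≤ subfieldSubgroup F₀ P

/-- the raw list of geometric alternatives -/
def Raw [Fintype F] (Q : (ι → F) → F) (H : Subgroup (GL ι F)) : Prop :=
  RSing Q H ∨ RNd Q H ∨ (¬ Odd (Fintype.card F) ∧ RVec Q H) ∨ RDec Q H ∨ RField H ∨
    (Odd (Fintype.card F) ∧ RTens Q H) ∨ RSub Q H

/-- `H` normalises, up to sign, a matrix whose square is a non-square scalar -/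
def SqrtJ (H : Subgroup (GL ι F)) : Prop :=
  ∃ (J : Matrix ι ι F) (d : F), J * J = d • 1 ∧ ¬ IsSquare d ∧
    ∀ h ∈ H, (h : Matrix ι ι F) * J * ((h⁻¹ : GL ι F) : Matrix ι ι F) = J ∨
      (h : Matrix ι ι F) * J * ((h⁻¹ : GL ι F) : Matrix ι ι F) = -J

/-- the pure tensor `P (x ⊗ y)` in the coordinates `(e, P)` -/
def pureV {a b : ℕ} (e : ι ≃ Fin a × Fin b) (P : GL ι F) (x : Fin a → F) (y : Fin b → F) : ι → F :=
  (P : Matrix ι ι F) *ᵥ ((fun p : Fin a × Fin b => x p.1 * y p.2) ∘ e)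

end Cfsg.Agent.Lib.Helper57.OE
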