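import Cfsg.Agent.Lib.Helper51.OE.F1
import Cfsg.Agent.Lib.Helper57.OE.Base

set_option autoImplicit false

/-! # G2: a Lagrangian disjoint from a given half-dimensional subspace -/

namespace Cfsg.Agent.Lib.Helper57.OE

open Cfsg Cfsg.Geo Matrix
open Cfsg.Agent.Lib.Helper51.OE (perp mem_perp mem_perp' finrank_perp ts_sup ts_finrank_le
  polar_eq_zero_of_ts)

variable {ι : Type} [Fintype ι] [DecidableEq ι] {F : Type*} [Field F] {Q : (ι → F) → F}

/-- the exchange step -/
theorem lagr_exchange (hQ : IsNondegenerateQuadraticForm Q) (W : Submodule F (ι → F))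
    (hdim : 2 * Module.finrank F W = Fintype.card ι) (U : Submodule F (ι → F)) (hU : IsLagr Q U)
    (h0 : U ⊓ W ≠ ⊥) :
    ∃ U', IsLagr Q U' ∧
      Module.finrank F (U' ⊓ W : Submodule F (ι → F)) <
        Module.finrank F (U ⊓ W : Submodule F (ι → F)) := by
  have hB := hQ.polar_bilinear
  obtain ⟨a, ha, ha0⟩ := Submodule.exists_mem_ne_zero_of_ne_bot h0
  -- `U ⊔ W` is proper
  have hne : U ⊔ W ≠ ⊤ := by
    intro h
    have h1 := Submodule.finrank_sup_add_finrank_inf_eq U W
    rw [h, finrank_top, Module.finrank_fintype_fun_eq_card] at h1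
    have h2 : 0 < Module.finrank F (U ⊓ W : Submodule F (ι → F)) :=
      Module.finrank_pos_iff_exists_ne_zero.2 ⟨⟨a, ha⟩, fun h => ha0 (congrArg Subtype.val h)⟩
    have h3 := hU.2
    omega
  obtain ⟨x, hx⟩ : ∃ x, x ∉ U ⊔ W := by
    by_contra hcon
    push Not at hcon
    exact hne (eq_top_iff.2 fun z _ => hcon z)
  obtain ⟨⟨y, hy⟩, -⟩ := hQ.nondegenerate a ha0
  obtain ⟨c, hc, hca⟩ : ∃ c, c ∉ U ⊔ W ∧ QuadraticMap.polar Q c a ≠ 0 := by
    by_cases h1 : QuadraticMap.polar Q x a = 0
    · by_cases h2 : y ∈ U ⊔ W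
      · refine ⟨x + y, fun h => hx ?_, ?_⟩
        · have := Submodule.sub_mem _ h h2
          rwa [add_sub_cancel_right] at this
        · rw [hB.add_left, h1, zero_add]
          exact hy
      · exact ⟨y, h2, hy⟩
    · exact ⟨x, hx, h1⟩
  set u : ι → F := (-(Q c / QuadraticMap.polar Q c a)) • a with hu
  have huU : u ∈ U := Submodule.smul_mem _ _ ha.1
  set c' : ι → F := c + u with hc'
  have hQc' : Q c' = 0 := by
    rw [hc', Q_add Q, hU.1 u huU, hu, hB.smul_right]
    field_simp
    ring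
  have hc'U : c' ∉ U ⊔ W := by
    intro h
    apply hc
    have := Submodule.sub_mem _ h (Submodule.mem_sup_left (T := W) huU)
    rwa [hc', add_sub_cancel_right] at this
  have hc'0 : c' ≠ 0 := fun h => hc'U (h ▸ Submodule.zero_mem _)
  set P : Submodule F (ι → F) := perp hQ (Submodule.span F {c}) with hP
  have hmemP : ∀ z, z ∈ P ↔ QuadraticMap.polar Q c z = 0 := by
    intro z
    rw [hP, mem_perp]
    constructor
    · intro h
      exact h c (Submodule.mem_span_singleton_self c)
    · intro h w hw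
      obtain ⟨r, rfl⟩ := Submodule.mem_span_singleton.1 hw
      rw [hB.smul_left, h, mul_zero]
  set U₀ : Submodule F (ι → F) := U ⊓ P with hU₀
  have hts₀ : IsTotallySingularQuad Q U₀ := fun z hz => hU.1 z hz.1
  have htsc : IsTotallySingularQuad Q (Submodule.span F {c'}) := by
    intro z hz
    obtain ⟨r, rfl⟩ := Submodule.mem_span_singleton.1 hz
    rw [hQ.smul, hQc', mul_zero]
  have hperp : Submodule.span F {c'} ≤ perp hQ U₀ := by
    intro z hz
    obtain ⟨r, rfl⟩ := Submodule.mem_span_singleton.1 hz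
    rw [mem_perp]
    intro w hw
    rw [hB.smul_right, hc', hB.add_right, QuadraticMap.polar_comm Q w c, (hmemP w).1 hw.2,
      polar_eq_zero_of_ts hU.1 hw.1 huU]
    ring
  have hts : IsTotallySingularQuad Q (U₀ ⊔ Submodule.span F {c'}) := ts_sup hQ hts₀ htsc hperp
  refine ⟨U₀ ⊔ Submodule.span F {c'}, ⟨hts, ?_⟩, ?_⟩
  · have h1 := ts_finrank_le hQ hts
    have h2 := Submodule.finrank_sup_add_finrank_inf_eq U₀ (Submodule.span F {c'})
    have h3 : U₀ ⊓ Submodule.span F {c'} = ⊥ := by
      rw [eq_bot_iff]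
      rintro z ⟨hz1, hz2⟩
      obtain ⟨r, rfl⟩ := Submodule.mem_span_singleton.1 hz2
      by_cases hr : r = 0
      · simp [hr]
      · exfalso
        apply hc'U
        have := Submodule.smul_mem _ r⁻¹ hz1.1
        rw [smul_smul, inv_mul_cancel₀ hr, one_smul] at this
        exact Submodule.mem_sup_left this
    rw [h3, finrank_bot, finrank_span_singleton hc'0] at h2
    have h4 := Submodule.finrank_sup_add_finrank_inf_eq U P
    have h5 := finrank_perp hQ (Submodule.span F {c})
    have h6 : Module.finrank F (Submodule.span F {c}) ≤ 1 := by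
      have := finrank_span_le_card (R := F) ({c} : Set (ι → F))
      simpa using this
    have h7 := Submodule.finrank_le (U ⊔ P)
    rw [Module.finrank_fintype_fun_eq_card] at h7
    have h8 := hU.2
    rw [← hP] at h5
    rw [← hU₀] at h4
    omega
  · have hle : (U₀ ⊔ Submodule.span F {c'}) ⊓ W ≤ (U ⊓ W) ⊓ P := by
      rintro z ⟨hz1, hz2⟩
      obtain ⟨w, hw, s, hs, rfl⟩ := Submodule.mem_sup.1 hz1
      obtain ⟨r, rfl⟩ := Submodule.mem_span_singleton.1 hs
      by_cases hr : r = 0
      · subst hr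
        rw [zero_smul, add_zero] at hz2 ⊢
        exact ⟨⟨hw.1, hz2⟩, hw.2⟩
      · exfalso
        apply hc'U
        have h1 : r • c' ∈ U ⊔ W := by
          have := Submodule.sub_mem _ (Submodule.mem_sup_right (S := U) hz2)
            (Submodule.mem_sup_left (T := W) hw.1)
          rwa [add_sub_cancel_left] at this
        have := Submodule.smul_mem _ r⁻¹ h1
        rwa [smul_smul, inv_mul_cancel₀ hr, one_smul] at this
    have hlt : (U ⊓ W) ⊓ P < U ⊓ W := by
      refine lt_of_le_of_ne inf_le_left fun h => ?_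
      have : a ∈ (U ⊓ W) ⊓ P := by
        rw [h]
        exact ha
      exact hca ((hmemP a).1 this.2)
    exact lt_of_le_of_lt (Submodule.finrank_mono hle) (Submodule.finrank_lt_finrank_of_lt hlt)

theorem exists_lagr_disjoint (hQ : IsNondegenerateQuadraticForm Q) (hplus : IsPlusTypeOn Q ⊤)
    (W : Submodule F (ι → F)) (hdim : 2 * Module.finrank F W = Fintype.card ι) :
    ∃ U, IsLagr Q U ∧ U ⊓ W = ⊥ := by
  have key : ∀ d : ℕ, ∀ U : Submodule F (ι → F), IsLagr Q U →
      Module.finrank F (U ⊓ W : Submodule F (ι → F)) = d → ∃ U', IsLagr Q U' ∧ U' ⊓ W = ⊥ := by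
    intro d
    induction d using Nat.strong_induction_on with
    | _ d ih =>
      intro U hU hd
      by_cases h0 : U ⊓ W = ⊥
      · exact ⟨U, hU, h0⟩
      · obtain ⟨U', hU', hlt⟩ := lagr_exchange hQ W hdim U hU h0
        exact ih _ (hd ▸ hlt) U' hU' rfl
  obtain ⟨U₀, -, hU₀, hd⟩ := hplus
  rw [finrank_top, Module.finrank_fintype_fun_eq_card] at hd
  exact key _ U₀ ⟨hU₀, hd⟩ rfl

end Cfsg.Agent.Lib.Helper57.OE
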