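import Cfsg.Agent.Lib.Helper57.OE.G0
import Cfsg.Agent.Lib.Helper57.OE.G2
import Cfsg.Agent.Lib.Helper98.OE.G4
import Cfsg.Agent.Lib.Helper98.OE.G5
import Cfsg.Agent.Lib.Helper8.OE.G7

set_option autoImplicit false

/-! # A non-degenerate half of a plus type space is isometric to its orthogonal complement -/

namespace Cfsg.Agent.Lib.Helper57.OE

open Cfsg Cfsg.Geo Matrix Cfsg.Agent.Lib.Helper13.Asch Cfsg.Agent.Lib.Helper90.Sp
open Cfsg.Agent.Lib.Helper51.OE (perp)
open scoped Kronecker MatrixGroups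

variable {ι : Type} [Fintype ι] [DecidableEq ι] {F : Type*} [Field F] {Q : (ι → F) → F}

/-- (c2): a non-degenerate half (of even dimension) of a plus type space -/
theorem isometric_perp [Fintype F] (hQ : IsNondegenerateQuadraticForm Q)
    (hplus : IsPlusTypeOn Q ⊤) (W : Submodule F (ι → F))
    (hnd : IsNondegenerateOn (QuadraticMap.polar Q) W)
    (hdim : 2 * Module.finrank F W = Fintype.card ι) (hev : Even (Module.finrank F W)) :
    AreIsometricFor Q W (perp hQ W) := by
  obtain ⟨U, hU, hUW⟩ := exists_lagr_disjoint hQ hplus W hdim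
  obtain ⟨θ, hθ⟩ := anti_isometry_of_lagr hQ W hnd hdim U hU hUW
  obtain ⟨J, hJ⟩ := Cfsg.Agent.Lib.Helper98.OE.neg_self_isometry hQ W hnd hev
  exact ⟨J.trans θ, fun w => by rw [LinearEquiv.trans_apply, hθ, hJ, neg_neg]⟩

/-- (c2), final form -/
theorem halves_decomp [Fintype F] (hQ : IsNondegenerateQuadraticForm Q)
    (hplus : IsPlusTypeOn Q ⊤) {H : Subgroup (GL ι F)} (hH : FixesQuadForm (matrixSet H) Q)
    (W : Submodule F (ι → F)) (hnd : IsNondegenerateOn (QuadraticMap.polar Q) W) {m : ℕ}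
    (hm : Module.finrank F W = m) (hpos : 0 < m) (hev : Even m) (hdim : 2 * m = Fintype.card ι)
    (hHW : H ≤ subspaceStabilizer W) :
    ∃ D : Fin 2 → Submodule F (ι → F), IsOrthogonalMDecomposition Q m D ∧
      H ≤ decompositionStabilizer D :=
  ⟨![W, perp hQ W], Cfsg.Agent.Lib.Helper98.OE.orthDecomp_of_pair hQ W hnd hm hpos hdim
    (isometric_perp hQ hplus W hnd (by omega) (by rwa [hm])),
    Cfsg.Agent.Lib.Helper8.OE.stab_le_decomp_pair hQ hH W hHW⟩

end Cfsg.Agent.Lib.Helper57.OE
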