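import Cfsg.Agent.Lib.Helper57.OE.Rows8
import Cfsg.Agent.Lib.Helper70.OE.P2
import Cfsg.Agent.Lib.Helper70.OE.P4
import Cfsg.Agent.Lib.Helper70.OE.P4s
import Cfsg.Agent.Lib.Helper70.OE.P7b
import Cfsg.Agent.Lib.Helper35.OE.N6
import Cfsg.Agent.Lib.Helper96.OE.N7
import Cfsg.Agent.Lib.Helper35.Asch.L7a

set_option autoImplicit false
set_option linter.unusedSectionVars false

/-! # Maximal subgroups of the minus type orthogonal groups: dimension 12 -/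

namespace Cfsg.Agent.Lib.Helper57.OE

open Cfsg Cfsg.Geo Matrix Cfsg.Agent.Lib.Helper13.Asch Cfsg.Agent.Lib.Helper90.Sp
open Cfsg.Agent.Lib.Helper1.Sp
open Cfsg.Agent.Lib.Helper37.OE Cfsg.Agent.Lib.Helper96.OE Cfsg.Agent.Lib.Helper98.OE
open Cfsg.Agent.Lib.Helper86.OE Cfsg.Agent.Lib.Helper35.OE Cfsg.Agent.Lib.Helper70.OE
open scoped Kronecker MatrixGroups

/-- the decomposition case in dimension 12 -/
theorem dec12 {F : Type*} [Field F] [Fintype F] {Q : (Fin 12 → F) → F}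
    (hQ : IsNondegenerateQuadraticForm Q) (hminus : ¬ IsPlusTypeOn Q ⊤)
    {H : Subgroup (GL (Fin 12) F)} (hH : IsMaximalIn (omegaGL Q) H) (h : RDec Q H) :
    ∃ D : Fin 3 → Submodule F (Fin 12 → F), IsOrthogonalMDecomposition Q 4 D ∧
      (∀ i, ¬ IsPlusTypeOn Q (D i)) ∧ H = decompositionStabilizer D ⊓ omegaGL Q := by
  obtain ⟨t, k, D, hD, hle⟩ := h
  have h1 := Cfsg.Agent.Lib.Helper55.Asch.card_of_decomp D hD.decomp.decomp
  rw [Fintype.card_fin] at h1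
  have h2 := hD.decomp.decomp.two_le
  have ht12 : t ∣ 12 := ⟨k, h1.symm⟩
  have hle12 : t ≤ 12 := Nat.le_of_dvd (by norm_num) ht12
  by_cases hev : Even t
  · exact (hminus (plus_of_even_decomp hQ D hD hev (by simp))).elim
  · have ht3 : t = 3 := by
      interval_cases t <;> first | omega | (exfalso; exact hev (by decide)) | (exfalso; revert ht12; decide)
    subst ht3
    have hk : k = 4 := by omega
    subst hk
    exact ⟨D, hD, fun i hi => hminus (plus_of_plus_block hQ D hD i hi),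
      eq_inf_of_maximal hH hle (not_le_decomp hQ (by simp) (by norm_num) D hD)⟩

theorem row12 {F : Type*} [Field F] [Fintype F] (Q : (Fin 12 → F) → F) (hQ : Cfsg.Geo.IsNondegenerateQuadraticForm Q) (hminus : ¬ Cfsg.Geo.IsPlusTypeOn Q ⊤) (H : Subgroup (Matrix.GeneralLinearGroup (Fin 12) F)) (hH : Cfsg.Geo.IsMaximalIn (Cfsg.Geo.omegaGL Q) H) :
    (∃ W : Submodule F (Fin 12 → F), W ≠ ⊥ ∧ Cfsg.Geo.IsTotallySingularQuad Q W ∧ H = Cfsg.Geo.subspaceStabilizer W ⊓ Cfsg.Geo.omegaGL Q) ∨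
    (Odd (Fintype.card F) ∧ ∃ W : Submodule F (Fin 12 → F), W ≠ ⊥ ∧ W ≠ ⊤ ∧ Odd (Module.finrank F W) ∧ 2 * Module.finrank F W ≠ 12 ∧ Cfsg.Geo.IsNondegenerateOn (QuadraticMap.polar Q) W ∧ H = Cfsg.Geo.subspaceStabilizer W ⊓ Cfsg.Geo.omegaGL Q) ∨
    (∃ W : Submodule F (Fin 12 → F), Module.finrank F W = 2 ∧ Cfsg.Geo.IsNondegenerateOn (QuadraticMap.polar Q) W ∧ ¬ Cfsg.Geo.IsPlusTypeOn Q W ∧ H = Cfsg.Geo.subspaceStabilizer W ⊓ Cfsg.Geo.omegaGL Q) ∨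
    (4 ≤ Fintype.card F ∧ ∃ W : Submodule F (Fin 12 → F), Module.finrank F W = 2 ∧ Cfsg.Geo.IsNondegenerateOn (QuadraticMap.polar Q) W ∧ Cfsg.Geo.IsPlusTypeOn Q W ∧ H = Cfsg.Geo.subspaceStabilizer W ⊓ Cfsg.Geo.omegaGL Q) ∨
    (∃ W : Submodule F (Fin 12 → F), Module.finrank F W = 4 ∧ Cfsg.Geo.IsNondegenerateOn (QuadraticMap.polar Q) W ∧ H = Cfsg.Geo.subspaceStabilizer W ⊓ Cfsg.Geo.omegaGL Q) ∨
    (∃ W : Submodule F (Fin 12 → F), Module.finrank F W = 6 ∧ Cfsg.Geo.IsNondegenerateOn (QuadraticMap.polar Q) W ∧ H = Cfsg.Geo.subspaceStabilizer W ⊓ Cfsg.Geo.omegaGL Q) ∨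
    (¬ Odd (Fintype.card F) ∧ ∃ v : (Fin 12 → F), Q v ≠ 0 ∧ H = Cfsg.Geo.subspaceStabilizer (Submodule.span F {v}) ⊓ Cfsg.Geo.omegaGL Q) ∨
    (∃ D : Fin 3 → Submodule F (Fin 12 → F), Cfsg.Geo.IsOrthogonalMDecomposition Q 4 D ∧ (∀ i, ¬ Cfsg.Geo.IsPlusTypeOn Q (D i)) ∧ H = Cfsg.Geo.decompositionStabilizer D ⊓ Cfsg.Geo.omegaGL Q) ∨
    (∃ K : Subalgebra F (Matrix (Fin 12) (Fin 12) F), Cfsg.Geo.IsFieldSubalgebra 2 K ∧ H = Cfsg.Geo.subalgebraNormalizer K ⊓ Cfsg.Geo.omegaGL Q) ∨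
    (∃ K : Subalgebra F (Matrix (Fin 12) (Fin 12) F), Cfsg.Geo.IsFieldSubalgebra 3 K ∧ H = Cfsg.Geo.subalgebraNormalizer K ⊓ Cfsg.Geo.omegaGL Q) ∨
    (Odd (Fintype.card F) ∧ 5 ≤ Fintype.card F ∧ ∃ (e : Fin 12 ≃ Fin 3 × Fin 4) (P : Matrix.GeneralLinearGroup (Fin 12) F) (f₁ : (Fin 3 → F) → (Fin 3 → F) → F) (f₂ : (Fin 4 → F) → (Fin 4 → F) → F), Cfsg.Geo.IsSymmetricForm f₁ ∧ Cfsg.Geo.IsSymmetricForm f₂ ∧ ¬ Cfsg.Geo.IsPlusTypeOn (fun v : Fin 4 → F => f₂ v v) ⊤ ∧ Cfsg.Geo.IsTensorFormStructure id (QuadraticMap.polar Q) f₁ f₂ e P ∧ H = Cfsg.Geo.tensorProductSubgroup 3 4 e P ⊓ Cfsg.Geo.omegaGL Q) ∨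
    (∃ (F₀ : Subfield F) (r : ℕ) (P : Matrix.GeneralLinearGroup (Fin 12) F) (ζ : F), r.Prime ∧ Odd r ∧ Fintype.card F = Nat.card F₀ ^ r ∧ ζ ≠ 0 ∧ Cfsg.Geo.IsQuadFormRationalStructure (fun v : Fin 12 → F => ζ * Q v) F₀ P ∧ H = Cfsg.Geo.subfieldSubgroup F₀ P ⊓ Cfsg.Geo.omegaGL Q) ∨
    Cfsg.Geo.InOrthogonalResidualClass H := by
  have hcard : Fintype.card (Fin 12) = 12 := by simp
  have hfix := fixesQuad_of_le_omega hH.1.le
  by_cases hN : NdOut Q H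
  · rcases hN with ⟨hodd, W, h0, h1, hW, hnd, heq⟩ | h | h | ⟨W, h4, hev, hhalf, hnd, heq⟩ | h
    · exact Or.inr (Or.inl ⟨hodd, W, h0, h1, hW, by obtain ⟨m, hm⟩ := hW; omega, hnd, heq⟩)
    · exact Or.inr (Or.inr (Or.inl h))
    · exact Or.inr (Or.inr (Or.inr (Or.inl h)))
    · rw [hcard] at hhalf
      have h46 : Module.finrank F W = 4 ∨ Module.finrank F W = 6 := by
        obtain ⟨m, hm⟩ := hev
        omega
      rcases h46 with h46 | h46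
      · exact Or.inr (Or.inr (Or.inr (Or.inr (Or.inl ⟨W, h46, hnd, heq⟩))))
      · exact Or.inr (Or.inr (Or.inr (Or.inr (Or.inr (Or.inl ⟨W, h46, hnd, heq⟩)))))
    · exact Or.inr (Or.inr (Or.inr (Or.inr (Or.inr (Or.inr (Or.inl h))))))
  by_cases hdec : RDec Q H
  · exact Or.inr (Or.inr (Or.inr (Or.inr (Or.inr (Or.inr (Or.inr (Or.inl
      (dec12 hQ hminus hH hdec))))))))
  rcases core (Or.inr hcard) hQ H hfix with hraw | hplus | hres
  · rcases hraw with ⟨W, h0, hW, hle⟩ | h | ⟨-, h⟩ | h | ⟨r, K, hr, hK, hle⟩ |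
      ⟨hodd, a, b, e, P, f₁, f₂, ha, hb, hf1, hf2, hT, hle⟩ | h
    · exact Or.inl ⟨W, h0, hW, eq_inf_of_maximal hH hle (not_le_sing hQ (by simp) W h0 hW)⟩
    · exact absurd (nd_out hQ (by simp) hH h) hN
    · exact absurd (vec_out hQ (by simp) hH h) hN
    · exact absurd h hdec
    · have h1 := Cfsg.Agent.Lib.Helper58.Asch.dvd_card_of_field K hK
      rw [hcard] at h1
      have heq := eq_inf_of_maximal hH hle (not_le_field hQ (by simp) hr K hK)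
      have hr23 : r = 2 ∨ r = 3 := by
        have hle12 : r ≤ 12 := Nat.le_of_dvd (by norm_num) h1
        have h2 := hr.two_le
        interval_cases r <;> first | omega | (exfalso; revert hr; decide) | (exfalso; revert h1; decide)
      rcases hr23 with rfl | rfl
      · exact Or.inr (Or.inr (Or.inr (Or.inr (Or.inr (Or.inr (Or.inr (Or.inr (Or.inl
          ⟨K, hK, heq⟩))))))))
      · exact Or.inr (Or.inr (Or.inr (Or.inr (Or.inr (Or.inr (Or.inr (Or.inr (Or.inr (Or.inl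
          ⟨K, hK, heq⟩)))))))))
    · have h20 : (2 : F) ≠ 0 := fun h => (two_eq_zero_iff.1 h) hodd
      have hc : a * b = 12 := by
        have := Fintype.card_congr e
        simpa using this.symm
      -- normalise to `3 ⊗ 4`
      obtain ⟨e', g₁, g₂, hg1, hg2, hT', hle'⟩ : ∃ (e' : Fin 12 ≃ Fin 3 × Fin 4)
          (g₁ : (Fin 3 → F) → (Fin 3 → F) → F) (g₂ : (Fin 4 → F) → (Fin 4 → F) → F),
          IsSymmetricForm g₁ ∧ IsSymmetricForm g₂ ∧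
          IsTensorFormStructure id (QuadraticMap.polar Q) g₁ g₂ e' P ∧
          H ≤ tensorProductSubgroup 3 4 e' P := by
        have hab : (a = 3 ∧ b = 4) ∨ (a = 4 ∧ b = 3) := by
          have ha4 : a ≤ 4 := by nlinarith
          interval_cases a <;> omega
        rcases hab with ⟨rfl, rfl⟩ | ⟨rfl, rfl⟩
        · exact ⟨e, f₁, f₂, hf1, hf2, hT, hle⟩
        · refine ⟨e.trans (Equiv.prodComm _ _), f₂, f₁, hf2, hf1, tensorForm_swap hT, ?_⟩
          rw [← Cfsg.Agent.Lib.Helper35.Asch.tensor_swap]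
          exact hle
      by_cases hq : 5 ≤ Fintype.card F
      · exact Or.inr (Or.inr (Or.inr (Or.inr (Or.inr (Or.inr (Or.inr (Or.inr (Or.inr (Or.inr (Or.inl
          ⟨hodd, hq, e', P, g₁, g₂, hg1, hg2,
            fun hp => hminus (plus_of_tensor_plus h20 hQ e' P g₁ g₂ hg1 hg2 hT' hp), hT',
            eq_inf_of_maximal hH hle' (not_le_tensor hQ (by simp) (by norm_num) (by norm_num) e' P)⟩
          ))))))))))
      · have hq3 : Fintype.card F = 3 := by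
          have h1 : 1 < Fintype.card F := Fintype.one_lt_card
          obtain ⟨m, hm⟩ := hodd
          omega
        obtain ⟨D, hD, hleD⟩ := rdec_of_tensor_three hq3 hQ hfix (by norm_num) e' P g₁ g₂ hg1 hg2
          hT' hle'
        exact absurd ⟨3, 4, D, hD, hleD⟩ hdec
    · exact Or.inr (Or.inr (Or.inr (Or.inr (Or.inr (Or.inr (Or.inr (Or.inr (Or.inr (Or.inr (Or.inr
        (Or.inl (sub_out hQ (by simp) (by simp; decide) hminus hH h))))))))))))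
  · exact (hminus hplus).elim
  · exact Or.inr (Or.inr (Or.inr (Or.inr (Or.inr (Or.inr (Or.inr (Or.inr (Or.inr (Or.inr (Or.inr
      (Or.inr hres)))))))))))

end Cfsg.Agent.Lib.Helper57.OE
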