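import Cfsg.Agent.Lib.Helper57.OE.Core
import Cfsg.Agent.Lib.Helper58.Asch.D6
import Cfsg.Agent.Lib.Helper55.Asch.DecCore
import Cfsg.Agent.Lib.Helper37.OE.P1a
import Cfsg.Agent.Lib.Helper96.OE.P1b
import Cfsg.Agent.Lib.Helper98.OE.P3c
import Cfsg.Agent.Lib.Helper96.OE.P5
import Cfsg.Agent.Lib.Helper37.OE.P6a
import Cfsg.Agent.Lib.Helper37.OE.P6b
import Cfsg.Agent.Lib.Helper37.OE.P6c
import Cfsg.Agent.Lib.Helper86.OE.N1
import Cfsg.Agent.Lib.Helper86.OE.N2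
import Cfsg.Agent.Lib.Helper86.OE.N3
import Cfsg.Agent.Lib.Helper96.OE.N4
import Cfsg.Agent.Lib.Helper35.OE.N5

set_option autoImplicit false
set_option linter.unusedSectionVars false

/-! # Maximal subgroups of the minus type orthogonal groups: shared part and dimension 8 -/

namespace Cfsg.Agent.Lib.Helper57.OE

open Cfsg Cfsg.Geo Matrix Cfsg.Agent.Lib.Helper13.Asch Cfsg.Agent.Lib.Helper90.Sp
open Cfsg.Agent.Lib.Helper1.Sp
open Cfsg.Agent.Lib.Helper37.OE Cfsg.Agent.Lib.Helper96.OE Cfsg.Agent.Lib.Helper98.OE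
open Cfsg.Agent.Lib.Helper86.OE Cfsg.Agent.Lib.Helper35.OE
open scoped Kronecker MatrixGroups

variable {ι : Type} [Fintype ι] [DecidableEq ι] {F : Type*} [Field F] {Q : (ι → F) → F}

theorem plus_of_even_decomp [Fintype F] (hQ : IsNondegenerateQuadraticForm Q) {t k : ℕ}
    (D : Fin t → Submodule F (ι → F)) (hD : IsOrthogonalMDecomposition Q k D) (ht : Even t)
    (h4 : 4 ∣ Fintype.card ι) : IsPlusTypeOn Q ⊤ := by
  obtain ⟨W, W', φ, hc, horth, hφ, hdim⟩ := halves_of_even_decomp hQ D hD ht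
  refine plus_of_halves hQ W W' φ hc horth hφ hdim ?_
  obtain ⟨m, hm⟩ := h4
  exact ⟨m, by omega⟩

/-- the outcome of the subspace cases -/
def NdOut [Fintype F] (Q : (ι → F) → F) (H : Subgroup (GL ι F)) : Prop :=
  (Odd (Fintype.card F) ∧ ∃ W : Submodule F (ι → F), W ≠ ⊥ ∧ W ≠ ⊤ ∧ Odd (Module.finrank F W) ∧
    IsNondegenerateOn (QuadraticMap.polar Q) W ∧ H = subspaceStabilizer W ⊓ omegaGL Q) ∨
  (∃ W : Submodule F (ι → F), Module.finrank F W = 2 ∧ IsNondegenerateOn (QuadraticMap.polar Q) W ∧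
    ¬ IsPlusTypeOn Q W ∧ H = subspaceStabilizer W ⊓ omegaGL Q) ∨
  (4 ≤ Fintype.card F ∧ ∃ W : Submodule F (ι → F), Module.finrank F W = 2 ∧
    IsNondegenerateOn (QuadraticMap.polar Q) W ∧ IsPlusTypeOn Q W ∧
    H = subspaceStabilizer W ⊓ omegaGL Q) ∨
  (∃ W : Submodule F (ι → F), 4 ≤ Module.finrank F W ∧ Even (Module.finrank F W) ∧
    2 * Module.finrank F W ≤ Fintype.card ι ∧ IsNondegenerateOn (QuadraticMap.polar Q) W ∧
    H = subspaceStabilizer W ⊓ omegaGL Q) ∨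
  (¬ Odd (Fintype.card F) ∧ ∃ v : ι → F, Q v ≠ 0 ∧
    H = subspaceStabilizer (Submodule.span F {v}) ⊓ omegaGL Q)

theorem ne_bot_top_of_finrank {W : Submodule F (ι → F)} (h0 : 0 < Module.finrank F W)
    (h1 : Module.finrank F W < Fintype.card ι) : W ≠ ⊥ ∧ W ≠ ⊤ := by
  constructor
  · rintro rfl
    simp at h0
  · rintro rfl
    simp at h1

theorem vec_out [Fintype F] (hQ : IsNondegenerateQuadraticForm Q) (hι : 8 ≤ Fintype.card ι)
    {H : Subgroup (GL ι F)} (hH : IsMaximalIn (omegaGL Q) H) (h : RVec Q H) : NdOut Q H := by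
  obtain ⟨v, hv, hle⟩ := h
  have heq := eq_inf_of_maximal hH hle (not_le_vec hQ hι v hv)
  by_cases hodd : Odd (Fintype.card F)
  · have h2 : (2 : F) ≠ 0 := fun h => (two_eq_zero_iff.1 h) hodd
    obtain ⟨hnd, hfr⟩ := span_nondeg h2 hQ v hv
    obtain ⟨h0, h1⟩ := ne_bot_top_of_finrank (W := Submodule.span F {v}) (by omega) (by omega)
    exact Or.inl ⟨hodd, _, h0, h1, by rw [hfr]; exact odd_one, hnd, heq⟩
  · exact Or.inr (Or.inr (Or.inr (Or.inr ⟨hodd, v, hv, heq⟩)))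

theorem nd_out [Fintype F] (hQ : IsNondegenerateQuadraticForm Q) (hι : 8 ≤ Fintype.card ι)
    {H : Subgroup (GL ι F)} (hH : IsMaximalIn (omegaGL Q) H) (h : RNd Q H) : NdOut Q H := by
  have hfix := fixesQuad_of_le_omega hH.1.le
  obtain ⟨W₀, h0, h1, hnd₀, hle₀⟩ := h
  -- replace `W₀` by its complement if it is too big
  obtain ⟨W, hpos, hhalf, hnd, hle⟩ : ∃ W : Submodule F (ι → F), 0 < Module.finrank F W ∧
      2 * Module.finrank F W ≤ Fintype.card ι ∧ IsNondegenerateOn (QuadraticMap.polar Q) W ∧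
      H ≤ subspaceStabilizer W := by
    obtain ⟨W', hnd', hle', hsum⟩ := compl_nondeg hQ hfix W₀ hnd₀ hle₀
    have hp0 : 0 < Module.finrank F W₀ := Module.finrank_pos_iff.2
      (Submodule.nontrivial_iff_ne_bot.2 h0)
    have hlt : Module.finrank F W₀ < Fintype.card ι := by
      have := Submodule.finrank_lt h1
      simpa using this
    by_cases hc : 2 * Module.finrank F W₀ ≤ Fintype.card ι
    · exact ⟨W₀, hp0, hc, hnd₀, hle₀⟩
    · exact ⟨W', by omega, by omega, hnd', hle'⟩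
  obtain ⟨hb, ht⟩ := ne_bot_top_of_finrank hpos (by omega)
  have heq := eq_inf_of_maximal hH hle (not_le_nd hQ (by omega) W hb ht hnd)
  rcases Nat.even_or_odd (Module.finrank F W) with hev | hodd
  · by_cases h4 : 4 ≤ Module.finrank F W
    · exact Or.inr (Or.inr (Or.inr (Or.inl ⟨W, h4, hev, hhalf, hnd, heq⟩)))
    · have h2 : Module.finrank F W = 2 := by
        obtain ⟨m, hm⟩ := hev
        omega
      by_cases hplus : IsPlusTypeOn Q W
      · by_cases hq : 4 ≤ Fintype.card F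
        · exact Or.inr (Or.inr (Or.inl ⟨hq, W, h2, hnd, hplus, heq⟩))
        · exact vec_out hQ hι hH (plus_plane_small hQ (by omega) hfix W hnd h2 hplus hle)
      · exact Or.inr (Or.inl ⟨W, h2, hnd, hplus, heq⟩)
  · exact Or.inl ⟨odd_card_of_odd_nondeg hQ W hnd hodd, W, hb, ht, hodd, hnd, heq⟩

/-- the subfield case -/
theorem sub_out [Fintype F] (hQ : IsNondegenerateQuadraticForm Q) (hι : 8 ≤ Fintype.card ι)
    (hev : Even (Fintype.card ι)) (hminus : ¬ IsPlusTypeOn Q ⊤)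
    {H : Subgroup (GL ι F)} (hH : IsMaximalIn (omegaGL Q) H) (h : RSub Q H) :
    ∃ (F₀ : Subfield F) (r : ℕ) (P : GL ι F) (ζ : F), r.Prime ∧ Odd r ∧
      Fintype.card F = Nat.card F₀ ^ r ∧ ζ ≠ 0 ∧
      IsQuadFormRationalStructure (fun v : ι → F => ζ * Q v) F₀ P ∧
      H = subfieldSubgroup F₀ P ⊓ omegaGL Q := by
  obtain ⟨F₀, r, P, ζ, hr, hc, hζ, hP, hle⟩ := h
  refine ⟨F₀, r, P, ζ, hr, ?_, hc, hζ, hP,
    eq_inf_of_maximal hH hle (not_le_subfield hQ (by omega) F₀ r hr hc P ζ hζ hP)⟩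
  rcases hr.eq_two_or_odd' with rfl | h
  · exact (hminus (plus_of_index_two hQ hev F₀ hc P ζ hζ hP)).elim
  · exact h

theorem row8 {F : Type*} [Field F] [Fintype F] (Q : (Fin 8 → F) → F) (hQ : Cfsg.Geo.IsNondegenerateQuadraticForm Q) (hminus : ¬ Cfsg.Geo.IsPlusTypeOn Q ⊤) (H : Subgroup (Matrix.GeneralLinearGroup (Fin 8) F)) (hH : Cfsg.Geo.IsMaximalIn (Cfsg.Geo.omegaGL Q) H) :
    (∃ W : Submodule F (Fin 8 → F), W ≠ ⊥ ∧ Cfsg.Geo.IsTotallySingularQuad Q W ∧ H = Cfsg.Geo.subspaceStabilizer W ⊓ Cfsg.Geo.omegaGL Q) ∨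
    (Odd (Fintype.card F) ∧ ∃ W : Submodule F (Fin 8 → F), W ≠ ⊥ ∧ W ≠ ⊤ ∧ Odd (Module.finrank F W) ∧ Cfsg.Geo.IsNondegenerateOn (QuadraticMap.polar Q) W ∧ H = Cfsg.Geo.subspaceStabilizer W ⊓ Cfsg.Geo.omegaGL Q) ∨
    (∃ W : Submodule F (Fin 8 → F), Module.finrank F W = 2 ∧ Cfsg.Geo.IsNondegenerateOn (QuadraticMap.polar Q) W ∧ ¬ Cfsg.Geo.IsPlusTypeOn Q W ∧ H = Cfsg.Geo.subspaceStabilizer W ⊓ Cfsg.Geo.omegaGL Q) ∨
    (4 ≤ Fintype.card F ∧ ∃ W : Submodule F (Fin 8 → F), Module.finrank F W = 2 ∧ Cfsg.Geo.IsNondegenerateOn (QuadraticMap.polar Q) W ∧ Cfsg.Geo.IsPlusTypeOn Q W ∧ H = Cfsg.Geo.subspaceStabilizer W ⊓ Cfsg.Geo.omegaGL Q) ∨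
    (∃ W : Submodule F (Fin 8 → F), Module.finrank F W = 4 ∧ Cfsg.Geo.IsNondegenerateOn (QuadraticMap.polar Q) W ∧ H = Cfsg.Geo.subspaceStabilizer W ⊓ Cfsg.Geo.omegaGL Q) ∨
    (¬ Odd (Fintype.card F) ∧ ∃ v : (Fin 8 → F), Q v ≠ 0 ∧ H = Cfsg.Geo.subspaceStabilizer (Submodule.span F {v}) ⊓ Cfsg.Geo.omegaGL Q) ∨
    (∃ K : Subalgebra F (Matrix (Fin 8) (Fin 8) F), Cfsg.Geo.IsFieldSubalgebra 2 K ∧ H = Cfsg.Geo.subalgebraNormalizer K ⊓ Cfsg.Geo.omegaGL Q) ∨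
    (∃ (F₀ : Subfield F) (r : ℕ) (P : Matrix.GeneralLinearGroup (Fin 8) F) (ζ : F), r.Prime ∧ Odd r ∧ Fintype.card F = Nat.card F₀ ^ r ∧ ζ ≠ 0 ∧ Cfsg.Geo.IsQuadFormRationalStructure (fun v : Fin 8 → F => ζ * Q v) F₀ P ∧ H = Cfsg.Geo.subfieldSubgroup F₀ P ⊓ Cfsg.Geo.omegaGL Q) ∨
    Cfsg.Geo.InOrthogonalResidualClass H := by
  have hcard : Fintype.card (Fin 8) = 8 := by simp
  have hfix := fixesQuad_of_le_omega hH.1.le
  by_cases hN : NdOut Q H
  · rcases hN with h | h | h | ⟨W, h4, hev, hhalf, hnd, heq⟩ | h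
    · exact Or.inr (Or.inl h)
    · exact Or.inr (Or.inr (Or.inl h))
    · exact Or.inr (Or.inr (Or.inr (Or.inl h)))
    · exact Or.inr (Or.inr (Or.inr (Or.inr (Or.inl ⟨W, by rw [hcard] at hhalf; omega, hnd, heq⟩))))
    · exact Or.inr (Or.inr (Or.inr (Or.inr (Or.inr (Or.inl h)))))
  rcases core (Or.inl hcard) hQ H hfix with hraw | hplus | hres
  · rcases hraw with ⟨W, h0, hW, hle⟩ | h | ⟨-, h⟩ | ⟨t, k, D, hD, hle⟩ | ⟨r, K, hr, hK, hle⟩ |
      ⟨-, a, b, e, -, -, -, ha, hb, -⟩ | h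
    · exact Or.inl ⟨W, h0, hW, eq_inf_of_maximal hH hle (not_le_sing hQ (by simp) W h0 hW)⟩
    · exact absurd (nd_out hQ (by simp) hH h) hN
    · exact absurd (vec_out hQ (by simp) hH h) hN
    · exfalso
      have h1 := Cfsg.Agent.Lib.Helper55.Asch.card_of_decomp D hD.decomp.decomp
      rw [hcard] at h1
      have h2 := hD.decomp.decomp.two_le
      refine hminus (plus_of_even_decomp hQ D hD ?_ (by simp))
      have ht8 : t ∣ 8 := ⟨k, h1.symm⟩
      have : t ≤ 8 := Nat.le_of_dvd (by norm_num) ht8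
      interval_cases t <;> first | decide | omega
    · have h1 := Cfsg.Agent.Lib.Helper58.Asch.dvd_card_of_field K hK
      rw [hcard] at h1
      have hr2 : r = 2 := by
        have := (Nat.prime_dvd_prime_iff_eq hr Nat.prime_two).1
          (hr.dvd_of_dvd_pow (show r ∣ 2 ^ 3 by norm_num; exact h1))
        exact this
      subst hr2
      exact Or.inr (Or.inr (Or.inr (Or.inr (Or.inr (Or.inr (Or.inl
        ⟨K, hK, eq_inf_of_maximal hH hle (not_le_field hQ (by simp) hr K hK)⟩))))))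
    · exfalso
      have hc : a * b = 8 := by
        have := Fintype.card_congr e
        simpa using this.symm
      nlinarith
    · exact Or.inr (Or.inr (Or.inr (Or.inr (Or.inr (Or.inr (Or.inr (Or.inl
        (sub_out hQ (by simp) (by simp; decide) hminus hH h))))))))
  · exact (hminus hplus).elim
  · exact Or.inr (Or.inr (Or.inr (Or.inr (Or.inr (Or.inr (Or.inr (Or.inr hres)))))))

end Cfsg.Agent.Lib.Helper57.OE
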