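import Cfsg.Agent.Lib.Helper90.OE.Defs
import Cfsg.Agent.Lib.Helper57.OE.Base

set_option autoImplicit false

/-! # ZC0b: long root maps preserve the quadratic form -/

namespace Cfsg.Agent.Lib.Helper57.OE

open Cfsg Cfsg.Geo Matrix Cfsg.Agent.Lib.Helper90.OE
open scoped MatrixGroups

variable {ι : Type} [Fintype ι] [DecidableEq ι] {F : Type*} [Field F] {Q : (ι → F) → F}

/-- a combination of a totally singular pair is singular -/
theorem Q_comb_tsPair (hQ : IsNondegenerateQuadraticForm Q) {u v : ι → F} (h : TSPair Q u v)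
    (a b : F) : Q (a • u + b • v) = 0 := by
  rw [Q_add Q, hQ.smul, hQ.smul, h.qu, h.qv, hQ.polar_bilinear.smul_left,
    hQ.polar_bilinear.smul_right, h.puv]
  ring

theorem Q_rootMap (hQ : IsNondegenerateQuadraticForm Q) {u v : ι → F} (h : TSPair Q u v)
    (x : ι → F) : Q (rootMap Q u v x) = Q x := by
  have hB := hQ.polar_bilinear
  have e : rootMap Q u v x
      = x + (QuadraticMap.polar Q v x • u + (-QuadraticMap.polar Q u x) • v) := by
    unfold rootMap
    rw [neg_smul]
    abel
  rw [e, Q_add Q, Q_comb_tsPair hQ h, hB.add_right, hB.smul_right, hB.smul_right,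
    QuadraticMap.polar_comm Q x u, QuadraticMap.polar_comm Q x v]
  ring

end Cfsg.Agent.Lib.Helper57.OE
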