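import Cfsg.Agent.Lib.Helper57.OE.ZC7
import Cfsg.Agent.Lib.Helper35.OE.N7a
import Cfsg.Agent.Lib.Helper35.Asch.L7a

set_option autoImplicit false

/-! # ZC5a, ZC5: the long root elements do not all lie in a tensor product subgroup -/

namespace Cfsg.Agent.Lib.Helper57.OE

open Cfsg Cfsg.Geo Matrix Cfsg.Agent.Lib.Helper13.Asch Cfsg.Agent.Lib.Helper90.Sp
open Cfsg.Agent.Lib.Helper90.OE
open scoped Kronecker MatrixGroups

variable {ι : Type} [Fintype ι] [DecidableEq ι] {F : Type*} [Field F] {Q : (ι → F) → F}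

/-- the conclusion of ZC2: a matrix commuting with all long root maps is scalar -/
def CommRoot (Q : (ι → F) → F) : Prop :=
  ∀ X : Matrix ι ι F,
    (∀ u v, TSPair Q u v → ∀ x, X *ᵥ rootMap Q u v x = rootMap Q u v (X *ᵥ x)) →
    ∃ c : F, X = c • 1

/-- conjugated reindexed matrices multiply as expected -/
theorem conj_reindex_mul {a b : ℕ} (e : ι ≃ Fin a × Fin b) (P : GL ι F)
    (M N : Matrix (Fin a × Fin b) (Fin a × Fin b) F) :
    ((P : Matrix ι ι F) * Matrix.reindex e.symm e.symm M * ((P⁻¹ : GL ι F) : Matrix ι ι F)) *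
      ((P : Matrix ι ι F) * Matrix.reindex e.symm e.symm N * ((P⁻¹ : GL ι F) : Matrix ι ι F))
    = (P : Matrix ι ι F) * Matrix.reindex e.symm e.symm (M * N) *
      ((P⁻¹ : GL ι F) : Matrix ι ι F) := by
  have h1 : ((P⁻¹ : GL ι F) : Matrix ι ι F) * (P : Matrix ι ι F) = 1 := by
    rw [← Units.val_mul, inv_mul_cancel, Units.val_one]
  have h2 : Matrix.reindex e.symm e.symm (M * N)
      = Matrix.reindex e.symm e.symm M * Matrix.reindex e.symm e.symm N := by
    simp only [Matrix.reindex_apply]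
    rw [Matrix.submatrix_mul_equiv]
  rw [h2]
  calc _ = (P : Matrix ι ι F) * Matrix.reindex e.symm e.symm M *
        (((P⁻¹ : GL ι F) : Matrix ι ι F) * (P : Matrix ι ι F)) *
        Matrix.reindex e.symm e.symm N * ((P⁻¹ : GL ι F) : Matrix ι ι F) := by
        simp only [Matrix.mul_assoc]
    _ = _ := by rw [h1, Matrix.mul_one]; simp only [Matrix.mul_assoc]

theorem commute_embL_of_rank_two {a b : ℕ} (hb : 3 ≤ b) (e : ι ≃ Fin a × Fin b) (P : GL ι F)
    {g : GL ι F} (hg : g ∈ tensorProductSubgroup a b e P) (u v : ι → F)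
    (huv : ∀ x, (g : Matrix ι ι F) *ᵥ x - x ∈ Submodule.span F {u, v})
    (X : Matrix (Fin a) (Fin a) F) :
    (g : Matrix ι ι F) * embL e P X = embL e P X * (g : Matrix ι ι F) := by
  obtain ⟨α, β, hαβ⟩ := (Cfsg.Agent.Lib.Helper35.Asch.mem_tensor_iff e P g).1 hg
  have hp : ∀ x y, (g : Matrix ι ι F) *ᵥ pureV e P x y
      = pureV e P ((α : Matrix _ _ F) *ᵥ x) ((β : Matrix _ _ F) *ᵥ y) := by
    intro x y
    rw [hαβ, Cfsg.Agent.Lib.Helper35.OE.N7aux.tens_mulVec_pureV]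
  obtain ⟨s, hs⟩ := Cfsg.Agent.Lib.Helper35.OE.N7aux.left_scalar hb e P (α : Matrix _ _ F)
    (β : Matrix _ _ F) u v (by
    intro x y
    rw [← hp]
    exact huv _)
  have hα : (α : Matrix (Fin a) (Fin a) F) = s • 1 := by
    apply Matrix.toLin'.injective
    apply LinearMap.ext
    intro x
    rw [Matrix.toLin'_apply, hs, Matrix.toLin'_apply, Matrix.smul_mulVec, Matrix.one_mulVec]
  rw [hαβ, hα]
  unfold embL
  rw [conj_reindex_mul, conj_reindex_mul, ← Matrix.mul_kronecker_mul, ← Matrix.mul_kronecker_mul]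
  simp

theorem not_rootIn_tensor_aux (hcomm : CommRoot Q) {a b : ℕ} (ha : 2 ≤ a) (hb : 3 ≤ b) (e : ι ≃ Fin a × Fin b)
    (P : GL ι F) : ¬ RootIn Q (tensorProductSubgroup a b e P) := by
  intro hR
  have hsc : ∀ X : Matrix (Fin a) (Fin a) F, ∃ c : F, embL e P X = c • 1 := by
    intro X
    refine hcomm _ ?_
    intro u v huv x
    obtain ⟨g, hg, hgx⟩ := hR u v huv
    have hc := commute_embL_of_rank_two hb e P hg u v (by
      intro x
      rw [hgx]
      exact rootMap_sub_mem u v x) X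
    rw [← hgx, ← hgx, Matrix.mulVec_mulVec, Matrix.mulVec_mulVec, hc]
  obtain ⟨c, hc⟩ := hsc (Matrix.single ⟨0, by omega⟩ ⟨0, by omega⟩ 1)
  -- evaluate on two pure tensors
  have hpure : ∀ (X : Matrix (Fin a) (Fin a) F) (x : Fin a → F) (y : Fin b → F),
      embL e P X *ᵥ pureV e P x y = pureV e P (X *ᵥ x) y := by
    intro X x y
    unfold embL
    rw [Cfsg.Agent.Lib.Helper35.OE.N7aux.tens_mulVec_pureV, Matrix.one_mulVec]
  have h0 := hpure (Matrix.single ⟨0, by omega⟩ ⟨0, by omega⟩ 1)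
    (Pi.single ⟨0, by omega⟩ 1) (Pi.single ⟨0, by omega⟩ 1)
  have h1 := hpure (Matrix.single ⟨0, by omega⟩ ⟨0, by omega⟩ 1)
    (Pi.single ⟨1, by omega⟩ 1) (Pi.single ⟨0, by omega⟩ 1)
  rw [hc, Matrix.smul_mulVec, Matrix.one_mulVec,
    ← Cfsg.Agent.Lib.Helper35.OE.T4aux.pureV_smul_left] at h0 h1
  have e0 := Cfsg.Agent.Lib.Helper35.OE.N7aux.pureV_inj e P h0 ⟨0, by omega⟩ ⟨0, by omega⟩
  have e1 := Cfsg.Agent.Lib.Helper35.OE.N7aux.pureV_inj e P h1 ⟨1, by omega⟩ ⟨0, by omega⟩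
  simp [Matrix.mulVec, dotProduct, Matrix.single_apply, Pi.single_apply, Fin.ext_iff] at e0 e1
  rw [Finset.sum_eq_single (⟨0, by omega⟩ : Fin a) (by
    intro x _ hx
    have : (x : ℕ) ≠ 0 := fun h => hx (Fin.ext h)
    simp [this]) (by simp)] at e0
  rw [e1] at e0
  simp at e0

theorem not_rootIn_tensor_aux2 (hcomm : CommRoot Q)
    (hι : 7 ≤ Fintype.card ι) {a b : ℕ} (ha : 2 ≤ a) (hb : 2 ≤ b) (e : ι ≃ Fin a × Fin b)
    (P : GL ι F) : ¬ RootIn Q (tensorProductSubgroup a b e P) := by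
  have hcard : Fintype.card ι = a * b := by
    rw [Fintype.card_congr e, Fintype.card_prod, Fintype.card_fin, Fintype.card_fin]
  by_cases h3 : 3 ≤ b
  · exact not_rootIn_tensor_aux hcomm ha h3 e P
  · have hb2 : b = 2 := by omega
    have ha3 : 3 ≤ a := by
      subst hb2
      omega
    rw [Cfsg.Agent.Lib.Helper35.Asch.tensor_swap]
    exact not_rootIn_tensor_aux hcomm hb ha3 _ P

end Cfsg.Agent.Lib.Helper57.OE
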