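import Cfsg.Agent.Lib.Helper57.OE.ZC5
import Cfsg.Agent.Lib.Helper15.OE.ZC1
import Cfsg.Agent.Lib.Helper15.OE.ZC2

set_option autoImplicit false

/-! # ZC5, ZC7, ZC8: exact forms -/

namespace Cfsg.Agent.Lib.Helper57.OE

open Cfsg Cfsg.Geo Matrix Cfsg.Agent.Lib.Helper13.Asch Cfsg.Agent.Lib.Helper90.Sp
open Cfsg.Agent.Lib.Helper90.OE
open scoped Kronecker MatrixGroups

variable {ι : Type} [Fintype ι] [DecidableEq ι] {F : Type*} [Field F] {Q : (ι → F) → F}

theorem not_rootIn_tensor [Fintype F] (hQ : IsNondegenerateQuadraticForm Q)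
    (hι : 7 ≤ Fintype.card ι) {a b : ℕ} (ha : 2 ≤ a) (hb : 2 ≤ b) (e : ι ≃ Fin a × Fin b)
    (P : GL ι F) : ¬ RootIn Q (tensorProductSubgroup a b e P) :=
  not_rootIn_tensor_aux2 (fun X hX => Cfsg.Agent.Lib.Helper15.OE.scalar_of_commute_root hQ hι X hX)
    hι ha hb e P

theorem not_rootIn_decomp_big [Fintype F] (hQ : IsNondegenerateQuadraticForm Q)
    (hι : 7 ≤ Fintype.card ι) {t m : ℕ} (hm : 3 ≤ m) (D : Fin t → Submodule F (ι → F))
    (hD : IsMDecomposition m D) : ¬ RootIn Q (decompositionStabilizer D) :=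
  not_rootIn_decomp_big_aux (fun W hW => Cfsg.Agent.Lib.Helper15.OE.irr_root hQ hι W hW) hm D hD

theorem not_rootIn_decomp_odd [Fintype F] (hQ : IsNondegenerateQuadraticForm Q)
    (hι : 7 ≤ Fintype.card ι) (h2 : (2 : F) ≠ 0) {t m : ℕ} (D : Fin t → Submodule F (ι → F))
    (hD : IsNondegenerateMDecomposition (QuadraticMap.polar Q) m D) :
    ¬ RootIn Q (decompositionStabilizer D) :=
  not_rootIn_decomp_odd_aux hQ (fun W hW => Cfsg.Agent.Lib.Helper15.OE.irr_root hQ hι W hW) h2 D hD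

end Cfsg.Agent.Lib.Helper57.OE
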