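import Cfsg.Agent.Lib.Helper57.OE.ZC0b

set_option autoImplicit false
set_option linter.unusedSectionVars false

/-! # ZC7, ZC8: the long root elements do not all lie in a decomposition stabiliser -/

namespace Cfsg.Agent.Lib.Helper57.OE

open Cfsg Cfsg.Geo Matrix Cfsg.Agent.Lib.Helper90.OE
open scoped MatrixGroups

variable {ι : Type} [Fintype ι] [DecidableEq ι] {F : Type*} [Field F] {Q : (ι → F) → F}

/-- the conclusion of ZC1: no proper subspace is stable under all long root maps -/
def IrrRoot (Q : (ι → F) → F) : Prop :=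
  ∀ W : Submodule F (ι → F), (∀ u v, TSPair Q u v → ∀ x ∈ W, rootMap Q u v x ∈ W) →
    W = ⊥ ∨ W = ⊤

/-- if all blocks are stable under all root maps we have a contradiction -/
theorem decomp_false_of_stable (hirr : IrrRoot Q) {t m : ℕ} (D : Fin t → Submodule F (ι → F))
    (hD : IsMDecomposition m D)
    (hst : ∀ u v, TSPair Q u v → ∀ i, ∀ x ∈ D i, rootMap Q u v x ∈ D i) : False := by
  have ht := hD.two_le
  have hm := hD.pos
  rcases hirr (D ⟨0, by omega⟩) (fun u v huv x hx => hst u v huv _ x hx) with h | h
  · have := hD.finrank_eq ⟨0, by omega⟩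
    rw [h, finrank_bot] at this
    omega
  · have hne : (⟨1, by omega⟩ : Fin t) ≠ ⟨0, by omega⟩ := by
      intro h
      simp [Fin.ext_iff] at h
    have hdis := hD.indep.pairwiseDisjoint hne
    rw [Function.onFun, h, disjoint_top] at hdis
    have := hD.finrank_eq ⟨1, by omega⟩
    rw [hdis, finrank_bot] at this
    omega

omit [Fintype ι] [DecidableEq ι] in
/-- the difference `rootMap x - x` lies in the span of `u, v` -/
theorem rootMap_sub_mem (u v x : ι → F) :
    rootMap Q u v x - x ∈ Submodule.span F {u, v} := by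
  have e : rootMap Q u v x - x
      = QuadraticMap.polar Q v x • u + (-QuadraticMap.polar Q u x) • v := by
    unfold rootMap
    rw [neg_smul]
    abel
  rw [e]
  exact Submodule.add_mem _ (Submodule.smul_mem _ _ (Submodule.subset_span (by simp)))
    (Submodule.smul_mem _ _ (Submodule.subset_span (by simp)))

theorem not_rootIn_decomp_big_aux (hirr : IrrRoot Q) {t m : ℕ} (hm : 3 ≤ m) (D : Fin t → Submodule F (ι → F))
    (hD : IsMDecomposition m D) : ¬ RootIn Q (decompositionStabilizer D) := by
  intro hR
  refine decomp_false_of_stable hirr D hD ?_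
  intro u v huv i x hx
  obtain ⟨g, ⟨σ, hσ⟩, hg⟩ := hR u v huv
  have hmap : ∀ y ∈ D i, rootMap Q u v y ∈ D (σ i) := by
    intro y hy
    rw [← hσ i, ← hg y]
    exact ⟨y, hy, by simp [Matrix.toLin'_apply]⟩
  by_cases hi : σ i = i
  · rw [hi] at hmap
    exact hmap x hx
  · exfalso
    have hdis : Disjoint (D (σ i)) (D i) := hD.indep.pairwiseDisjoint hi
    -- the linear map `y ↦ g y - y` from `D i` to the span
    let φ : D i →ₗ[F] (ι → F) :=
      (Matrix.toLin' (g : Matrix ι ι F) - LinearMap.id) ∘ₗ (D i).subtype
    have hφ : ∀ y : D i, φ y = rootMap Q u v y - y := by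
      intro y
      simp [φ, Matrix.toLin'_apply, hg]
    have hinj : Function.Injective φ := by
      rw [← LinearMap.ker_eq_bot, LinearMap.ker_eq_bot']
      intro y hy
      rw [hφ, sub_eq_zero] at hy
      have h1 : (y : ι → F) ∈ D (σ i) := by
        rw [← hy]
        exact hmap y y.2
      have := Submodule.disjoint_def.mp hdis _ h1 y.2
      exact Subtype.ext this
    have hle : LinearMap.range φ ≤ Submodule.span F {u, v} := by
      rintro _ ⟨y, rfl⟩
      rw [hφ]
      exact rootMap_sub_mem u v _
    have h1 : Module.finrank F (D i) = Module.finrank F (LinearMap.range φ) :=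
      (LinearMap.finrank_range_of_inj hinj).symm
    have h2 := Submodule.finrank_mono hle
    have h3 : Module.finrank F (Submodule.span F {u, v}) ≤ 2 := by
      classical
      have := finrank_span_finset_le_card (R := F) ({u, v} : Finset (ι → F))
      rw [Finset.coe_insert, Finset.coe_singleton] at this
      exact this.trans Finset.card_le_two
    rw [hD.finrank_eq] at h1
    omega

theorem not_rootIn_decomp_odd_aux (hQ : IsNondegenerateQuadraticForm Q)
    (hirr : IrrRoot Q) (h2 : (2 : F) ≠ 0) {t m : ℕ} (D : Fin t → Submodule F (ι → F))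
    (hD : IsNondegenerateMDecomposition (QuadraticMap.polar Q) m D) :
    ¬ RootIn Q (decompositionStabilizer D) := by
  intro hR
  refine decomp_false_of_stable hirr D hD.decomp ?_
  intro u v huv i x hx
  obtain ⟨g, ⟨σ, hσ⟩, hg⟩ := hR u v huv
  have hmap : ∀ y ∈ D i, rootMap Q u v y ∈ D (σ i) := by
    intro y hy
    rw [← hσ i, ← hg y]
    exact ⟨y, hy, by simp [Matrix.toLin'_apply]⟩
  by_cases hi : σ i = i
  · rw [hi] at hmap
    exact hmap x hx
  · exfalso
    have hB := hQ.polar_bilinear
    have hQ0 : ∀ y ∈ D i, Q y = 0 := by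
      intro y hy
      have h1 : QuadraticMap.polar Q (rootMap Q u v y) y = 0 :=
        hD.orthogonal (σ i) i hi _ (hmap y hy) _ hy
      have h3 : rootMap Q u v y
          = y + (QuadraticMap.polar Q v y • u + (-QuadraticMap.polar Q u y) • v) := by
        unfold rootMap
        rw [neg_smul]
        abel
      -- polar (y + s) y = polar y y + polar s y ; Q (y+s) = Q y gives polar y s = 0
      have h4 := Q_rootMap hQ huv y
      rw [h3, Q_add Q, Q_comb_tsPair hQ huv] at h4
      rw [h3, hB.add_left, QuadraticMap.polar_comm Q (_ + _) y] at h1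
      have h5 : QuadraticMap.polar Q y y = 2 * Q y := (two_mul_Q hQ y).symm
      have h6 : 2 * Q y = 0 := by
        rw [← h5]
        linear_combination h1 - h4
      exact (mul_eq_zero.mp h6).resolve_left h2
    have hne : D i ≠ ⊥ := by
      intro h
      have := hD.decomp.finrank_eq i
      rw [h, finrank_bot] at this
      have := hD.decomp.pos
      omega
    obtain ⟨w, hw, hw0⟩ := Submodule.exists_mem_ne_zero_of_ne_bot hne
    obtain ⟨⟨z, hz, hzw⟩, -⟩ := hD.nondegenerate i w hw hw0
    apply hzw
    unfold QuadraticMap.polar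
    rw [hQ0 _ (Submodule.add_mem _ hz hw), hQ0 _ hz, hQ0 _ hw]
    ring

end Cfsg.Agent.Lib.Helper57.OE
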